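import Cfsg.Agent.Lib.Helper10.LC0

/-!
Job 121 (helper10, S0406 piece LC-B1): for a Good lattice `M`, `4z ∈ M` iff `∑ z i` is even.
-/

set_option autoImplicit false

namespace Cfsg.Agent.Lib.Helper73.LCB1

open Matrix Cfsg.Agent.Lib.Helper10.LC

theorem four_mem_of_even {M : AddSubgroup (Fin 24 → ℤ)} (hM : Good M) (z : Fin 24 → ℤ)
    (hz : (∑ i, z i) % 2 = 0) : (fun i => 4 * z i) ∈ M := by
  obtain ⟨k, hk⟩ : ∃ k : ℤ, ∑ i, z i = 2 * k := ⟨(∑ i, z i) / 2, by omega⟩
  have hw : ∀ i : Fin 24, (Pi.single i 4 + Pi.single 0 4 : Fin 24 → ℤ) ∈ M := by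
    intro i
    by_cases hi : i = 0
    · subst hi
      have h8 : (Pi.single 0 4 + Pi.single 0 4 : Fin 24 → ℤ) = Pi.single 0 8 := by
        rw [← Pi.single_add]; norm_num
      rw [h8]
      exact hM.single8 0
    · exact hM.pair4 i 0 hi
  have hsum : (∑ i, z i • (Pi.single i 4 + Pi.single 0 4 : Fin 24 → ℤ)) ∈ M :=
    M.sum_mem (fun i _ => M.zsmul_mem (hw i) (z i))
  have hk8 : k • (Pi.single 0 8 : Fin 24 → ℤ) ∈ M := M.zsmul_mem (hM.single8 0) k
  have heq : (fun i => 4 * z i) =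
      (∑ i, z i • (Pi.single i 4 + Pi.single 0 4 : Fin 24 → ℤ)) - k • (Pi.single 0 8 : Fin 24 → ℤ) := by
    funext j
    simp only [Pi.sub_apply, Finset.sum_apply, Pi.smul_apply, Pi.add_apply, smul_eq_mul,
      Pi.single_apply, mul_add, Finset.sum_add_distrib, mul_ite, mul_zero]
    rw [Finset.sum_ite_eq Finset.univ j (fun i => z i * 4)]
    simp only [Finset.mem_univ, if_true]
    by_cases hj : j = 0
    · simp only [hj, if_true]
      rw [← Finset.sum_mul, hk]
      ring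
    · simp only [hj, if_false, Finset.sum_const_zero]
      ring
  rw [heq]
  exact M.sub_mem hsum hk8

theorem four_mem {M : AddSubgroup (Fin 24 → ℤ)} (hM : Good M) (z : Fin 24 → ℤ) :
    (fun i => 4 * z i) ∈ M ↔ (∑ i, z i) % 2 = 0 := by
  refine ⟨fun h => ?_, four_mem_of_even hM z⟩
  by_contra hodd
  have hodd' : (∑ i, z i) % 2 = 1 := by omega
  have hs : ∑ i, (z i - (Pi.single 0 1 : Fin 24 → ℤ) i) = (∑ i, z i) - 1 := by
    rw [Finset.sum_sub_distrib]
    simp [Pi.single_apply]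
  have h' : (fun i => 4 * (z i - (Pi.single 0 1 : Fin 24 → ℤ) i)) ∈ M := by
    apply four_mem_of_even hM
    rw [hs]; omega
  have hd : (fun i => 4 * z i) - (fun i => 4 * (z i - (Pi.single 0 1 : Fin 24 → ℤ) i)) =
      (Pi.single 0 4 : Fin 24 → ℤ) := by
    funext j
    simp only [Pi.sub_apply, Pi.single_apply]
    by_cases hj : j = 0
    · simp only [hj, if_true]; ring
    · simp [hj]
  have hmem : (Pi.single 0 4 : Fin 24 → ℤ) ∈ M := by
    rw [← hd]; exact M.sub_mem h h'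
  have hne : (Pi.single 0 4 : Fin 24 → ℤ) ≠ 0 := by
    intro h0
    have := congrFun h0 0
    simp at this
  have h32 := hM.norm32 _ hmem hne
  have h16 : ∑ i, (Pi.single 0 4 : Fin 24 → ℤ) i ^ 2 = 16 := by
    simp [Pi.single_apply, ite_pow]
  omega

end Cfsg.Agent.Lib.Helper73.LCB1
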