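import Cfsg.Agent.Lib.Helper96.SpDefs

/-!
# S5961, piece SP-COUNT: an isometry of prime order from a divisibility of the number of
orthogonal decompositions
-/

set_option autoImplicit false
set_option linter.unusedSectionVars false

namespace Cfsg.Agent.Lib.Helper73.SpCount

open Module Cfsg.Agent.Lib.Helper96.Sp

variable {F : Type*} [Field F] {V : Type*} [AddCommGroup V] [Module F V]

theorem isOD_comp {B : LinearMap.BilinForm F V} {a t : ℕ} (D : Fin t → Submodule F V)
    (h : IsOD B a D) (σ : Equiv.Perm (Fin t)) : IsOD B a (fun j => D (σ j)) := by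
  obtain ⟨h1, h2, h3⟩ := h
  refine ⟨fun j => h1 _, fun j j' hjj => h2 _ _ (fun e => hjj (σ.injective e)), ?_⟩
  rw [← h3]
  exact σ.iSup_comp (g := D)

theorem isOD_map [FiniteDimensional F V] {B : LinearMap.BilinForm F V} {a t : ℕ}
    (D : Fin t → Submodule F V) (h : IsOD B a D) (g : V ≃ₗ[F] V)
    (hg : Isom B (g : V →ₗ[F] V)) : IsOD B a (fun j => (D j).map (g : V →ₗ[F] V)) := by
  obtain ⟨h1, h2, h3⟩ := h
  refine ⟨?_, ?_, ?_⟩
  · intro j
    rw [← h1 j]
    exact (LinearEquiv.finrank_eq (g.submoduleMap (D j))).symm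
  · rintro j j' hjj _ ⟨u, hu, rfl⟩ _ ⟨v, hv, rfl⟩
    rw [hg u v]
    exact h2 j j' hjj u hu v hv
  · rw [← Submodule.map_iSup, h3, Submodule.map_top, LinearMap.range_eq_top]
    exact g.surjective

/-- The group of the isometries. -/
def isoGrp (B : LinearMap.BilinForm F V) : Subgroup (V ≃ₗ[F] V) where
  carrier := {g | Isom B (g : V →ₗ[F] V)}
  mul_mem' := by
    intro a b ha hb x y
    show B (a (b x)) (a (b y)) = B x y
    exact (ha (b x) (b y)).trans (hb x y)
  one_mem' := fun x y => rfl
  inv_mem' := by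
    intro a ha x y
    show B (a.symm x) (a.symm y) = B x y
    have h := ha (a.symm x) (a.symm y)
    rw [LinearEquiv.coe_coe, LinearEquiv.apply_symm_apply, LinearEquiv.apply_symm_apply] at h
    exact h.symm

/-- The action of the symmetric group on ordered orthogonal decompositions. -/
@[reducible] noncomputable def permAct (B : LinearMap.BilinForm F V) (a t : ℕ) :
    MulAction (Equiv.Perm (Fin t)) {D : Fin t → Submodule F V // IsOD B a D} where
  smul σ D := ⟨fun j => D.1 (σ.symm j), isOD_comp D.1 D.2 σ.symm⟩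
  one_smul D := Subtype.ext rfl
  mul_smul σ τ D := Subtype.ext (funext fun j => rfl)

/-- The action of the isometries on ordered orthogonal decompositions. -/
@[reducible] noncomputable def isoAct [FiniteDimensional F V] (B : LinearMap.BilinForm F V)
    (a t : ℕ) : MulAction ↥(isoGrp B) {D : Fin t → Submodule F V // IsOD B a D} where
  smul g D := ⟨fun j => (D.1 j).map ((g : V ≃ₗ[F] V) : V →ₗ[F] V), isOD_map D.1 D.2 g.1 g.2⟩
  one_smul D := Subtype.ext (funext fun j => Submodule.map_id _)
  mul_smul g h D := Subtype.ext (funext fun j => Submodule.map_comp _ _ _)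

theorem factorial_dvd_card [Fintype F] [FiniteDimensional F V] {B : LinearMap.BilinForm F V}
    (hN : ND B ⊤) (a t : ℕ) (ha : 1 ≤ a) :
    t.factorial ∣ Nat.card {D : Fin t → Submodule F V // IsOD B a D} := by
  classical
  letI := permAct B a t
  have hfree : ∀ D : {D : Fin t → Submodule F V // IsOD B a D},
      MulAction.stabilizer (Equiv.Perm (Fin t)) D = ⊥ := by
    intro D
    rw [eq_bot_iff]
    intro σ hσ
    rw [MulAction.mem_stabilizer_iff] at hσ
    rw [Subgroup.mem_bot]
    have hinj : Function.Injective D.1 := by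
      intro i j hij
      by_contra hne
      have hnd : ND B (D.1 i) := nd_of_orth_sup_top hN D.1 D.2.2.1 D.2.2.2 i
      have horth : Orth B (D.1 i) (D.1 i) := by
        have := D.2.2.1 i j hne
        rw [← hij] at this
        exact this
      have hbot : D.1 i = ⊥ := by
        rw [eq_bot_iff]
        intro u hu
        rw [Submodule.mem_bot]
        exact hnd u hu (fun v hv => horth u hu v hv)
      have h1 := D.2.1 i
      rw [hbot, finrank_bot] at h1
      omega
    have h1 : ∀ j, D.1 (σ.symm j) = D.1 j := fun j => congrFun (congrArg Subtype.val hσ) j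
    ext j
    have h2 := hinj (h1 (σ j))
    rw [Equiv.symm_apply_apply] at h2
    rw [← h2]
    rfl
  have e := MulAction.selfEquivOrbitsQuotientProd hfree
  rw [Nat.card_congr e, Nat.card_prod, Nat.card_eq_fintype_card (α := Equiv.Perm (Fin t)),
    Fintype.card_perm, Fintype.card_fin]
  exact dvd_mul_left _ _

theorem exists_isom_of_dvd_count {F : Type*} [Field F] [Fintype F] {V : Type*} [AddCommGroup V]
    [Module F V] [FiniteDimensional F V] {B : LinearMap.BilinForm F V} (hA : B.IsAlt) (hN : ND B ⊤)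
    (a t : ℕ) (ha : 1 ≤ a) (D₀ : Fin t → Submodule F V) (h₀ : IsOD B a D₀)
    (hwitt : ∀ D D' : Fin t → Submodule F V, IsOD B a D → IsOD B a D' →
      ∃ g : V ≃ₗ[F] V, Isom B (g : V →ₗ[F] V) ∧ ∀ j, (D j).map (g : V →ₗ[F] V) = D' j)
    (r : ℕ) [Fact r.Prime]
    (hΩ : r ∣ Nat.card {D : Fin t → Submodule F V // IsOD B a D} / Nat.factorial t) :
    ∃ g : Module.End F V, Isom B g ∧ g ^ r = 1 ∧ g ≠ 1 := by
  classical
  have hr : r.Prime := Fact.out
  haveI : Finite V := Module.finite_of_finite F
  haveI : Finite (V ≃ₗ[F] V) :=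
    Finite.of_injective (fun g : V ≃ₗ[F] V => (g : V → V)) DFunLike.coe_injective
  have h1 := factorial_dvd_card (F := F) (V := V) hN a t ha
  have h2 : Nat.card {D : Fin t → Submodule F V // IsOD B a D} ∣ Nat.card ↥(isoGrp B) := by
    letI := isoAct B a t
    haveI : MulAction.IsPretransitive ↥(isoGrp B) {D : Fin t → Submodule F V // IsOD B a D} :=
      ⟨by
        intro D D'
        obtain ⟨g, hg, hgD⟩ := hwitt D.1 D'.1 D.2 D'.2
        exact ⟨⟨g, hg⟩, Subtype.ext (funext hgD)⟩⟩
    rw [← MulAction.index_stabilizer_of_transitive ↥(isoGrp B)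
      (⟨D₀, h₀⟩ : {D : Fin t → Submodule F V // IsOD B a D})]
    exact Subgroup.index_dvd_card _
  have h3 : r ∣ Nat.card ↥(isoGrp B) := dvd_trans hΩ (dvd_trans (Nat.div_dvd_of_dvd h1) h2)
  obtain ⟨g, hg⟩ := exists_prime_orderOf_dvd_card' (G := ↥(isoGrp B)) r h3
  have hgr : (g : V ≃ₗ[F] V) ^ r = 1 := by
    have : g ^ r = 1 := by
      rw [← hg]
      exact pow_orderOf_eq_one g
    have h := congrArg (fun x : ↥(isoGrp B) => (x : V ≃ₗ[F] V)) this
    simpa using h
  have hpow : ∀ (k : ℕ) (x : V),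
      ((((g : V ≃ₗ[F] V) : V →ₗ[F] V) : Module.End F V) ^ k) x = ((g : V ≃ₗ[F] V) ^ k) x := by
    intro k
    induction k with
    | zero => intro x; rfl
    | succ k ih =>
      intro x
      rw [pow_succ, pow_succ]
      show ((((g : V ≃ₗ[F] V) : V →ₗ[F] V) : Module.End F V) ^ k) ((g : V ≃ₗ[F] V) x) =
        ((g : V ≃ₗ[F] V) ^ k) ((g : V ≃ₗ[F] V) x)
      exact ih _
  refine ⟨((g : V ≃ₗ[F] V) : V →ₗ[F] V), g.2, ?_, ?_⟩
  · ext x
    rw [hpow, hgr]
    rfl
  · intro h
    have hg1 : g = 1 := by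
      apply Subtype.ext
      ext x
      have := LinearMap.congr_fun h x
      exact this
    rw [hg1, orderOf_one] at hg
    exact hr.one_lt.ne hg

end Cfsg.Agent.Lib.Helper73.SpCount
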