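import Mathlib
import Cfsg.Prelude.Def_GeometricClasses
import Cfsg.Agent.Lib.Helper71.SLP0

/-! SLP piece C2 (helper71's project): a decomposition into `t` subspaces of dimension `m` of
`F ^ n` has `t * m = n`. -/

set_option autoImplicit false

namespace Cfsg.Agent.Lib.Helper73.SLPC2

open Matrix Cfsg.Geo Cfsg.Agent.Lib.Helper71.SLP

variable {n : ℕ} {F : Type*} [Field F] [Fintype F]

/-- C2 -/
theorem C2 {t m : ℕ} (D : Fin t → Submodule F (Fin n → F)) (hD : IsMDecomposition m D) :
    t * m = n := by
  classical
  have hint := DirectSum.isInternal_submodule_of_iSupIndep_of_iSup_eq_top hD.indep hD.iSup_eq_top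
  have h1 := Module.finrank_eq_card_basis
    (hint.collectedBasis (fun i => Module.finBasis F (D i)))
  rw [Module.finrank_fin_fun, Fintype.card_sigma] at h1
  simp only [Fintype.card_fin, hD.finrank_eq, Finset.sum_const, Finset.card_univ,
    smul_eq_mul] at h1
  exact h1.symm

end Cfsg.Agent.Lib.Helper73.SLPC2
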