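import Mathlib
import Cfsg.Agent.Lib.Helper26.GrossMinA
import Cfsg.Agent.Lib.Helper26.GrossSq

/-!
Job 208 (helper26, S3793 piece CARD): in the minimal configuration, `|Q| ≤ (a-1)^2 |R|` forces
equality.
-/

set_option autoImplicit false

open scoped commutatorElement

universe u

namespace Cfsg.Agent.Lib.Helper73.GrossCard

open Cfsg.Agent.Lib.Helper26

/-- arithmetic core: `a = p^j > 1` (`p` odd), `a ∣ s^2 - 1`, `2 ≤ s ≤ a - 1` force `s = a - 1`. -/
theorem arith_core {p a s j : ℕ} (hp : p.Prime) (hp2 : p ≠ 2) (haj : a = p ^ j) (ha : 1 < a)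
    (hs2 : 2 ≤ s) (hdvd : a ∣ s ^ 2 - 1) (hsa : s ≤ a - 1) : s = a - 1 := by
  have hfac : s ^ 2 - 1 = (s - 1) * (s + 1) := by
    obtain ⟨t, rfl⟩ : ∃ t, s = t + 2 := ⟨s - 2, by omega⟩
    have h1 : (t + 2) ^ 2 - 1 = (t + 1) * (t + 3) := by
      have : (t + 2) ^ 2 = (t + 1) * (t + 3) + 1 := by ring
      omega
    rw [h1]
    have e1 : t + 2 - 1 = t + 1 := by omega
    rw [e1]
  rw [hfac] at hdvd
  have hnot : ¬ (p ∣ s - 1 ∧ p ∣ s + 1) := by
    rintro ⟨h1, h2⟩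
    have h3 : p ∣ (s + 1) - (s - 1) := Nat.dvd_sub h2 h1
    have h4 : (s + 1) - (s - 1) = 2 := by omega
    rw [h4] at h3
    have := Nat.le_of_dvd (by norm_num) h3
    have := hp.two_le
    omega
  by_cases h1 : p ∣ s - 1
  · have h2 : ¬ p ∣ s + 1 := fun h2 => hnot ⟨h1, h2⟩
    have hcop : Nat.Coprime a (s + 1) := by
      rw [haj]
      exact Nat.Coprime.pow_left _ ((Nat.Prime.coprime_iff_not_dvd hp).mpr h2)
    have h3 : a ∣ s - 1 := hcop.dvd_of_dvd_mul_right hdvd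
    have := Nat.le_of_dvd (by omega) h3
    omega
  · have hcop : Nat.Coprime a (s - 1) := by
      rw [haj]
      exact Nat.Coprime.pow_left _ ((Nat.Prime.coprime_iff_not_dvd hp).mpr h1)
    have h3 : a ∣ s + 1 := hcop.dvd_of_dvd_mul_left hdvd
    have := Nat.le_of_dvd (by omega) h3
    omega

theorem gross_card_eq {Γ : Type u} [Group Γ] [Finite Γ] {p q n : ℕ} {Q : Subgroup Γ} {φ : Γ}
    (hmin : GrossMin p q n Q φ) (hp2 : p ≠ 2) {k : Type*} [Field k] {χ : Γ → k} {R : Subgroup Γ}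
    (hχ : GrossChi Q χ R) (N a : ℕ) (hNa : N * a = p ^ (n + 1)) (ha : 1 < a)
    (hinv : ∀ z ∈ Q ⊓ Subgroup.centralizer (Q : Set Γ), χ (φ ^ N * z * (φ ^ N)⁻¹) = χ z)
    (hRQ : R ≠ Q) (hle : Nat.card Q ≤ (a - 1) ^ 2 * Nat.card R) :
    Nat.card Q = (a - 1) ^ 2 * Nat.card R := by
  have hp := hmin.hp
  have hq := hmin.hq
  haveI : Fact q.Prime := ⟨hq⟩
  set Z : Subgroup Γ := Q ⊓ Subgroup.centralizer (Q : Set Γ) with hZ
  -- χ is multiplicative on powers in Z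
  have hχpow : ∀ z ∈ Z, ∀ i : ℕ, χ (z ^ i) = χ z ^ i := by
    intro z hz i
    induction i with
    | zero => rw [pow_zero, pow_zero]; exact hχ.h1
    | succ i ih => rw [pow_succ, pow_succ, hχ.hmul _ (Z.pow_mem hz i) _ hz, ih]
  -- the square
  obtain ⟨s, hs⟩ : ∃ s : ℕ, Nat.card Q = s ^ 2 * Nat.card R := by
    refine gross_sq (fun x y => χ ⁅x, y⁆) q hq R (Nat.card Q) Q rfl hmin.hfin ?_ ?_ ?_ ?_ ?_ hχ.hR
    · intro x hx x' hx' y hy
      show χ ⁅x * x', y⁆ = χ ⁅x, y⁆ * χ ⁅x', y⁆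
      rw [hmin.comm_mul_left hx hx' hy]
      exact hχ.hmul _ (hmin.comm_mem_center hx hy) _ (hmin.comm_mem_center hx' hy)
    · intro x hx y hy y' hy'
      show χ ⁅x, y * y'⁆ = χ ⁅x, y⁆ * χ ⁅x, y'⁆
      rw [hmin.comm_mul_right hx hy hy']
      exact hχ.hmul _ (hmin.comm_mem_center hx hy) _ (hmin.comm_mem_center hx hy')
    · intro x _
      show χ ⁅x, x⁆ = 1
      rw [commutatorElement_self]; exact hχ.h1
    · intro x hx y hy
      show χ ⁅x, y⁆ * χ ⁅y, x⁆ = 1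
      rw [← hχ.hmul _ (hmin.comm_mem_center hx hy) _ (hmin.comm_mem_center hy hx),
        ← commutatorElement_inv x y, mul_inv_cancel]
      exact hχ.h1
    · intro x hx y hy
      show χ ⁅x, y⁆ ^ q = 1
      rw [← hχpow _ (hmin.comm_mem_center hx hy), hmin.comm_pow x hx y hy]
      exact hχ.h1
  haveI : Finite Q := hmin.hfin
  have hQpos : 0 < Nat.card Q := Nat.card_pos
  have hRpos : 0 < Nat.card R := Nat.card_pos
  have hRle : R ≤ Q := hχ.le
  have hs2 : 2 ≤ s := by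
    by_contra hlt
    have hs01 : s = 0 ∨ s = 1 := by omega
    rcases hs01 with h0 | h1
    · rw [h0] at hs; simp at hs; omega
    · rw [h1] at hs
      apply hRQ
      exact Subgroup.eq_of_le_of_card_ge hRle (by rw [hs]; simp)
  -- the group A generated by φ^N
  have hNpos : 0 < N := by
    rcases Nat.eq_zero_or_pos N with h0 | h0
    · rw [h0, zero_mul] at hNa
      exact absurd hNa.symm (pow_pos hp.pos _).ne'
    · exact h0
  have hord : orderOf (φ ^ N) = a := by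
    rw [orderOf_pow_of_dvd hNpos.ne' (by rw [hmin.ord, ← hNa]; exact dvd_mul_right _ _), hmin.ord,
      ← hNa, Nat.mul_div_cancel_left _ hNpos]
  have hφ1 : φ ^ N ∈ Subgroup.zpowers φ := Subgroup.pow_mem _ (Subgroup.mem_zpowers φ) N
  have hAle : Subgroup.zpowers (φ ^ N) ≤ Subgroup.zpowers φ := by
    rw [Subgroup.zpowers_le]; exact hφ1
  -- elements of zpowers φ normalise Z
  have hZnorm : ∀ t ∈ Subgroup.zpowers φ, ∀ z ∈ Z, t * z * t⁻¹ ∈ Z := by
    intro t ht z hz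
    refine ⟨hmin.zpow_norm ht z hz.1, ?_⟩
    show t * z * t⁻¹ ∈ Subgroup.centralizer (Q : Set Γ)
    rw [Subgroup.mem_centralizer_iff]
    intro w hw
    have hw' : t⁻¹ * w * t ∈ Q := by
      have := hmin.zpow_norm (Subgroup.inv_mem _ ht) w hw
      simpa using this
    have hc := (Subgroup.mem_centralizer_iff.mp hz.2) _ hw'
    calc w * (t * z * t⁻¹) = t * ((t⁻¹ * w * t) * z) * t⁻¹ := by group
      _ = t * (z * (t⁻¹ * w * t)) * t⁻¹ := by rw [hc]
      _ = t * z * t⁻¹ * w := by group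
  -- invariance of χ under all natural powers of φ^N
  have hinvpow : ∀ i : ℕ, ∀ z ∈ Z, χ ((φ ^ N) ^ i * z * ((φ ^ N) ^ i)⁻¹) = χ z := by
    intro i
    induction i with
    | zero => intro z _; simp
    | succ i ih =>
      intro z hz
      have hmem : (φ ^ N) ^ i * z * ((φ ^ N) ^ i)⁻¹ ∈ Z :=
        hZnorm _ (Subgroup.pow_mem _ hφ1 i) z hz
      have e : (φ ^ N) ^ (i + 1) * z * ((φ ^ N) ^ (i + 1))⁻¹ =
          φ ^ N * ((φ ^ N) ^ i * z * ((φ ^ N) ^ i)⁻¹) * (φ ^ N)⁻¹ := by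
        rw [pow_succ']; group
      rw [e, hinv _ hmem, ih z hz]
  -- every element of A is a natural power
  have hApow : ∀ t ∈ Subgroup.zpowers (φ ^ N), ∃ i : ℕ, (φ ^ N) ^ i = t := by
    intro t ht
    have := (mem_powers_iff_mem_zpowers (x := φ ^ N) (y := t)).mpr ht
    exact (Submonoid.mem_powers_iff t (φ ^ N)).mp this
  -- A normalises R
  have hAR : ∀ t ∈ Subgroup.zpowers (φ ^ N), ∀ x ∈ R, t * x * t⁻¹ ∈ R := by
    intro t ht
    obtain ⟨i, rfl⟩ := hApow t ht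
    exact GrossChi.norm hmin hχ (hAle ht) (hinvpow i)
  -- the free action on Q \ R
  have hYst : ∀ t ∈ Subgroup.zpowers (φ ^ N), ∀ y ∈ ((Q : Set Γ) \ (R : Set Γ)),
      t * y * t⁻¹ ∈ ((Q : Set Γ) \ (R : Set Γ)) := by
    intro t ht y hy
    refine ⟨hmin.zpow_norm (hAle ht) y hy.1, fun hR => hy.2 ?_⟩
    have := hAR t⁻¹ (Subgroup.inv_mem _ ht) _ hR
    have e : t⁻¹ * (t * y * t⁻¹) * t⁻¹⁻¹ = y := by group
    rw [e] at this
    exact this
  have hfree : ∀ t ∈ Subgroup.zpowers (φ ^ N), ∀ y ∈ ((Q : Set Γ) \ (R : Set Γ)),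
      t * y * t⁻¹ = y → t = 1 := by
    intro t ht y hy hty
    by_contra ht1
    apply hy.2
    apply hmin.fpf_mod R hRle hχ.center_le (hAle ht) ht1 (hAR t ht) y hy.1
    rw [hty, inv_mul_cancel]
    exact R.one_mem
  have hdvd : Nat.card (Subgroup.zpowers (φ ^ N)) ∣
      Nat.card ↥((Q : Set Γ) \ (R : Set Γ)) :=
    gross_free_dvd (Subgroup.zpowers (φ ^ N)) ((Q : Set Γ) \ (R : Set Γ)) hYst hfree
  rw [Nat.card_zpowers, hord] at hdvd
  have hYcard : Nat.card ↥((Q : Set Γ) \ (R : Set Γ)) = Nat.card Q - Nat.card R := by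
    rw [Nat.card_coe_set_eq, Set.ncard_sdiff (by exact_mod_cast hRle) (Set.toFinite _),
      ← Nat.card_coe_set_eq, ← Nat.card_coe_set_eq]
    rfl
  rw [hYcard, hs] at hdvd
  have hfac : s ^ 2 * Nat.card R - Nat.card R = (s ^ 2 - 1) * Nat.card R := by
    rw [Nat.sub_mul, one_mul]
  rw [hfac] at hdvd
  -- a is a power of p, |R| a power of q
  obtain ⟨j, -, haj⟩ := (Nat.dvd_prime_pow hp).mp (Dvd.intro_left N hNa)
  obtain ⟨m, hm⟩ := IsPGroup.iff_card.mp (hmin.hQ.to_le hRle)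
  have hcop : Nat.Coprime a (Nat.card R) := by
    rw [haj, hm]
    exact Nat.Coprime.pow _ _ ((Nat.coprime_primes hp hq).mpr (Ne.symm hmin.hqp))
  have hdvd' : a ∣ s ^ 2 - 1 := hcop.dvd_of_dvd_mul_right hdvd
  have hsa : s ≤ a - 1 := by
    rw [hs] at hle
    have h1 : s ^ 2 ≤ (a - 1) ^ 2 := Nat.le_of_mul_le_mul_right hle hRpos
    exact (Nat.pow_le_pow_iff_left (by norm_num)).mp h1
  have := arith_core hp hp2 haj ha hs2 hdvd' hsa
  rw [hs, this]

end Cfsg.Agent.Lib.Helper73.GrossCard
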