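import Cfsg.Agent.Lib.Helper27.ChevDyn
import Cfsg.Agent.Lib.Helper25.ChevBN

/-!
# Piece PB4 of the Chevalley root datum: the longest element `w0`

An element `w` of the Chevalley group (the product of the `n_{p_i}(1)` along a reduced word of
the longest element of the Weyl group) which exchanges `U` and `V` and sends every simple root
subgroup `X_{p_k}` onto `X_{-p_{ν k}}` for a permutation `ν` of the nodes.
-/

set_option autoImplicit false

namespace Cfsg.Agent.Lib.Helper73.ChevDynP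

open Cfsg.Lie Cfsg.Agent.Lib.Helper27.PslnOut Cfsg.Agent.Lib.Helper27.DynOut
  Cfsg.Agent.Lib.Helper27.ChevDyn
open Cfsg.Agent.Lib.Helper24 Cfsg.Agent.Lib.Helper25

/-- The word sends every fundamental root to the negative of a fundamental root. -/
def nuChk (D : ChevalleyDatum) (L : List ℕ) : Bool :=
  (List.range D.rank).all fun k => (List.range D.rank).any fun j =>
    decide (wPiF D L (D.simple k) = D.neg (D.simple j))

set_option maxHeartbeats 4000000 in
theorem nuChk_G2 : nuChk chevG2 w0WordG2 = true := by decide +kernel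
set_option maxHeartbeats 4000000 in
theorem nuChk_B2 : nuChk chevB2 w0WordB2 = true := by decide +kernel
set_option maxHeartbeats 4000000 in
theorem nuChk_D4 : nuChk chevD4 w0WordD4 = true := by decide +kernel
set_option maxHeartbeats 4000000 in
theorem nuChk_F4 : nuChk chevF4 w0WordF4 = true := by decide +kernel
set_option maxHeartbeats 4000000 in
theorem nuChk_E6 : nuChk chevE6 w0WordE6 = true := by decide +kernel
set_option maxHeartbeats 4000000 in
theorem nuChk_E7 : nuChk chevE7 w0WordE7 = true := by decide +kernel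
set_option maxHeartbeats 4000000 in
theorem nuChk_E8 : nuChk chevE8 w0WordE8 = true := by decide +kernel

variable {F : Type*} [Field F] (D : ChevalleyDatum)

/-- the value of the chosen root element -/
theorem xg_val_pb4 (hD : D ∈ lst) (r : ℕ) (a : F) :
    ((xg D r a : GL D.Idx F) : Matrix D.Idx D.Idx F) = D.x F r a := by
  have hD' : D ∈ chevList := hD
  have h : ∃ g : ↥(D.group F), ((g : GL D.Idx F) : Matrix D.Idx D.Idx F) = D.x F r a :=
    ⟨⟨xGL D hD' r a, xGL_mem_group D hD' r a⟩, xGL_val D hD' r a⟩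
  unfold xg
  rw [dif_pos h]
  exact h.choose_spec

/-- The product of the `n_p` along a word is (the matrix of) an element of the group. -/
theorem exists_nWord_group (hD : D ∈ lst) (L : List ℕ) :
    ∃ g ∈ D.group F, ((g : GL D.Idx F) : Matrix D.Idx D.Idx F) = nWordMat F D L := by
  have hD' : D ∈ chevList := hD
  induction L with
  | nil => exact ⟨1, Subgroup.one_mem _, rfl⟩
  | cons i L ih =>
    obtain ⟨g, hg, hval⟩ := ih
    obtain ⟨a, ha, haval⟩ := exists_mem_group_of_word (F := F) D hD' (D.nWord (D.simple i) 1)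
    refine ⟨a * g, Subgroup.mul_mem _ ha hg, ?_⟩
    rw [Units.val_mul, haval, hval, nWordMat_cons]
    rfl

theorem wPi_reverse_cancel' (hD : D ∈ lst) (L : List ℕ) (hL : ∀ i ∈ L, i < D.rank) (s : ℕ)
    (hs : s < D.nroots) : wPi D L.reverse (wPi D L s) = s := by
  have hLr : ∀ i ∈ L.reverse, i < D.rank := fun i hi => hL i (List.mem_reverse.1 hi)
  have h := wPi_reverse_cancel D hD L.reverse hLr s hs
  rwa [List.reverse_reverse] at h

/-- Conjugation by the element of a word maps the subgroup generated by the root subgroups of a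
set `P` of roots onto the one of a set `Q`, when the word maps `P` into `Q` and its reverse maps
`Q` into `P`. -/
theorem conj_closure (hD : D ∈ lst) (L : List ℕ) (hL : ∀ i ∈ L, i < D.rank)
    (n : GL D.Idx F) (hn : (n : Matrix D.Idx D.Idx F) = nWordMat F D L) (P Q : ℕ → Prop)
    (hP : ∀ r, P r → r < D.nroots ∧ Q (wPi D L r))
    (hQ : ∀ s, Q s → s < D.nroots ∧ P (wPi D L.reverse s)) :
    (Subgroup.closure {g : GL D.Idx F | ∃ (r : ℕ) (t : F), P r ∧
        (g : Matrix D.Idx D.Idx F) = D.x F r t}).map (MulAut.conj n).toMonoidHom =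
      Subgroup.closure {g : GL D.Idx F | ∃ (r : ℕ) (t : F), Q r ∧
        (g : Matrix D.Idx D.Idx F) = D.x F r t} := by
  have hninv : (n : Matrix D.Idx D.Idx F) * ((n⁻¹ : GL D.Idx F) : Matrix D.Idx D.Idx F) = 1 := by
    rw [← Units.val_mul, mul_inv_cancel, Units.val_one]
  have hninv' : ((n⁻¹ : GL D.Idx F) : Matrix D.Idx D.Idx F) * (n : Matrix D.Idx D.Idx F) = 1 := by
    rw [← Units.val_mul, inv_mul_cancel, Units.val_one]
  rw [MonoidHom.map_closure]
  congr 1
  ext g
  constructor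
  · rintro ⟨g₀, ⟨r, t, hr, hg₀⟩, rfl⟩
    have hrn : r < D.nroots := (hP r hr).1
    refine ⟨wPi D L r, ((wEta D L r : ℤ) : F) * t, (hP r hr).2, ?_⟩
    show ((n * g₀ * n⁻¹ : GL D.Idx F) : Matrix D.Idx D.Idx F) = _
    rw [Units.val_mul, Units.val_mul, hg₀, hn, nWordMat_conj D hD L hL r hrn t, ← hn,
      Matrix.mul_assoc, hninv, Matrix.mul_one]
  · rintro ⟨s, t, hs, hg⟩
    have hsn : s < D.nroots := (hQ s hs).1
    have hr : P (wPi D L.reverse s) := (hQ s hs).2
    have hLr : ∀ i ∈ L.reverse, i < D.rank := fun i hi => hL i (List.mem_reverse.1 hi)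
    have hrn : wPi D L.reverse s < D.nroots := wPi_lt D hD L.reverse hLr s hsn
    refine ⟨n⁻¹ * g * n, ⟨wPi D L.reverse s, ((wEta D L (wPi D L.reverse s) : ℤ) : F) * t, hr, ?_⟩,
      ?_⟩
    · have hc := nWordMat_conj (F := F) D hD L hL (wPi D L.reverse s) hrn
        (((wEta D L (wPi D L.reverse s) : ℤ) : F) * t)
      rw [wPi_reverse_cancel D hD L hL s hsn, ← mul_assoc,
        sign_sq (F := F) _ (wEta_cases D L (wPi D L.reverse s)), one_mul] at hc
      rw [Units.val_mul, Units.val_mul, hg, Matrix.mul_assoc, hn, ← hc, ← hn,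
        ← Matrix.mul_assoc, hninv', Matrix.one_mul]
    · show n * (n⁻¹ * g * n) * n⁻¹ = g
      group

/-- The package for a word of the longest element. -/
theorem w0_pkg (hD : D ∈ lst) (L : List ℕ) (h : w0Chk D L = true) (h2 : nuChk D L = true) :
    ∃ (w : ↥(D.group F)) (ν : Fin D.rank → Fin D.rank), Function.Surjective ν ∧
      (∀ g, g ∈ Vg F D ↔ w⁻¹ * g * w ∈ Ug F D) ∧ (∀ g, g ∈ Ug F D ↔ w⁻¹ * g * w ∈ Vg F D) ∧
      (∀ (k : Fin D.rank) (a : F), ∃ b, w * xs D k a * w⁻¹ = ys D (ν k) b) ∧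
      (∀ (k : Fin D.rank) (b : F), ∃ a, w⁻¹ * ys D (ν k) b * w = xs D k a) := by
  have hD' : D ∈ chevList := hD
  unfold w0Chk at h
  simp only [Bool.and_eq_true, List.all_eq_true, decide_eq_true_eq, List.mem_range,
    Bool.or_eq_true, Bool.not_eq_true', decide_eq_false_iff_not] at h
  obtain ⟨hL, hchk⟩ := h
  have hLr : ∀ i ∈ L.reverse, i < D.rank := fun i hi => hL i (List.mem_reverse.1 hi)
  unfold nuChk at h2
  simp only [List.all_eq_true, List.any_eq_true, decide_eq_true_eq, List.mem_range] at h2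
  -- root facts
  have hpn : ∀ r, D.IsPosRoot r → r < D.nroots ∧ D.IsNegRoot (wPi D L r) := by
    intro r hr
    have hrn : r < D.nroots := hr.1
    refine ⟨hrn, ?_⟩
    rcases (hchk r hrn).1 with h1 | h1
    · exact absurd hr h1
    · rwa [wPiF_eq D hD L hL r hrn] at h1
  have hnp : ∀ s, D.IsNegRoot s → s < D.nroots ∧ D.IsPosRoot (wPi D L.reverse s) := by
    intro s hs
    have hsn : s < D.nroots := hs.1
    refine ⟨hsn, ?_⟩
    rcases (hchk s hsn).2 with h1 | h1
    · exact absurd hs h1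
    · rwa [wPiF_eq D hD L.reverse hLr s hsn] at h1
  have hnp' : ∀ r, D.IsNegRoot r → r < D.nroots ∧ D.IsPosRoot (wPi D L r) := by
    intro r hr
    have hrn : r < D.nroots := hr.1
    refine ⟨hrn, ?_⟩
    have h1 : D.IsPosRoot (D.neg r) := (sign_facts D hD r hrn).2.2.1.1 hr
    have h3 := (hpn _ h1).2
    rw [wPi_neg D hD L hL r hrn] at h3
    exact (sign_facts D hD _ (wPi_lt D hD L hL r hrn)).2.2.2.2 h3
  have hpn' : ∀ s, D.IsPosRoot s → s < D.nroots ∧ D.IsNegRoot (wPi D L.reverse s) := by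
    intro s hs
    have hsn : s < D.nroots := hs.1
    refine ⟨hsn, ?_⟩
    have h1 : D.IsNegRoot (D.neg s) := (sign_facts D hD s hsn).2.2.2.1 hs
    have h3 := (hnp _ h1).2
    rw [wPi_neg D hD L.reverse hLr s hsn] at h3
    exact (sign_facts D hD _ (wPi_lt D hD L.reverse hLr s hsn)).2.2.1.2 h3
  -- the element
  obtain ⟨n, hnG, hn⟩ := exists_nWord_group (F := F) D hD L
  have hUV : (D.posUnipotent F).map (MulAut.conj n).toMonoidHom = D.negUnipotent F :=
    conj_closure D hD L hL n hn D.IsPosRoot D.IsNegRoot hpn hnp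
  have hVU : (D.negUnipotent F).map (MulAut.conj n).toMonoidHom = D.posUnipotent F :=
    conj_closure D hD L hL n hn D.IsNegRoot D.IsPosRoot hnp' hpn'
  have hninv : (n : Matrix D.Idx D.Idx F) * ((n⁻¹ : GL D.Idx F) : Matrix D.Idx D.Idx F) = 1 := by
    rw [← Units.val_mul, mul_inv_cancel, Units.val_one]
  have hninv' : ((n⁻¹ : GL D.Idx F) : Matrix D.Idx D.Idx F) * (n : Matrix D.Idx D.Idx F) = 1 := by
    rw [← Units.val_mul, inv_mul_cancel, Units.val_one]
  have key : ∀ (S T : Subgroup (GL D.Idx F)), S.map (MulAut.conj n).toMonoidHom = T →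
      ∀ g : GL D.Idx F, g ∈ T ↔ n⁻¹ * g * n ∈ S := by
    intro S T hST g
    rw [← hST]
    constructor
    · rintro ⟨u, hu, rfl⟩
      have e : n⁻¹ * ((MulAut.conj n).toMonoidHom u) * n = u := by
        show n⁻¹ * (n * u * n⁻¹) * n = u
        group
      rw [e]
      exact hu
    · intro hg
      refine ⟨n⁻¹ * g * n, hg, ?_⟩
      show n * (n⁻¹ * g * n) * n⁻¹ = g
      group
  -- the permutation of the nodes
  have hex : ∀ k : Fin D.rank, ∃ j : Fin D.rank,
      wPi D L (D.simple k) = D.neg (D.simple j) := by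
    intro k
    obtain ⟨j, hj, hjk⟩ := h2 k k.2
    refine ⟨⟨j, hj⟩, ?_⟩
    rw [← wPiF_eq D hD L hL _ (simple_lt D hD' k k.2)]
    exact hjk
  choose ν hν using hex
  have hνinj : Function.Injective ν := by
    intro k k' hkk
    have e : wPi D L (D.simple k) = wPi D L (D.simple k') := by rw [hν k, hν k', hkk]
    have e2 := congrArg (wPi D L.reverse) e
    rw [wPi_reverse_cancel' D hD L hL _ (simple_lt D hD' k k.2),
      wPi_reverse_cancel' D hD L hL _ (simple_lt D hD' k' k'.2)] at e2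
    exact Fin.ext (simple_inj D hD k k' k.2 k'.2 e2)
  refine ⟨⟨n, hnG⟩, ν, Finite.injective_iff_surjective.1 hνinj, ?_, ?_, ?_, ?_⟩
  · intro g
    exact key _ _ hUV g
  · intro g
    exact key _ _ hVU g
  · intro k a
    refine ⟨((wEta D L (D.simple k) : ℤ) : F) * a, ?_⟩
    apply Subtype.ext
    apply Units.ext
    show (n : Matrix D.Idx D.Idx F) * ((xs D k a : GL D.Idx F) : Matrix D.Idx D.Idx F) *
      ((n⁻¹ : GL D.Idx F) : Matrix D.Idx D.Idx F) =
        (((ys D (ν k) (((wEta D L (D.simple k) : ℤ) : F) * a) : ↥(D.group F)) : GL D.Idx F) :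
          Matrix D.Idx D.Idx F)
    unfold xs ys
    rw [xg_val_pb4 D hD, xg_val_pb4 D hD, hn,
      nWordMat_conj D hD L hL _ (simple_lt D hD' k k.2) a, ← hn, Matrix.mul_assoc, hninv,
      Matrix.mul_one, hν k]
  · intro k b
    refine ⟨((wEta D L (D.simple k) : ℤ) : F) * b, ?_⟩
    apply Subtype.ext
    apply Units.ext
    show ((n⁻¹ : GL D.Idx F) : Matrix D.Idx D.Idx F) *
      ((ys D (ν k) b : GL D.Idx F) : Matrix D.Idx D.Idx F) * (n : Matrix D.Idx D.Idx F) =
        (((xs D k (((wEta D L (D.simple k) : ℤ) : F) * b) : ↥(D.group F)) : GL D.Idx F) :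
          Matrix D.Idx D.Idx F)
    unfold xs ys
    have hc := nWordMat_conj (F := F) D hD L hL _ (simple_lt D hD' k k.2)
      (((wEta D L (D.simple k) : ℤ) : F) * b)
    rw [← mul_assoc, sign_sq (F := F) _ (wEta_cases D L (D.simple k)), one_mul, hν k] at hc
    rw [xg_val_pb4 D hD, xg_val_pb4 D hD, Matrix.mul_assoc, hn, ← hc, ← hn, ← Matrix.mul_assoc,
      hninv', Matrix.one_mul]

/-- PB4 -/
theorem pieceB_w0 [Finite F] (hD : D ∈ lst) :
    ∃ (w : ↥(D.group F)) (ν : Fin D.rank → Fin D.rank), Function.Surjective ν ∧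
      (∀ g, g ∈ Vg F D ↔ w⁻¹ * g * w ∈ Ug F D) ∧ (∀ g, g ∈ Ug F D ↔ w⁻¹ * g * w ∈ Vg F D) ∧
      (∀ (k : Fin D.rank) (a : F), ∃ b, w * xs D k a * w⁻¹ = ys D (ν k) b) ∧
      (∀ (k : Fin D.rank) (b : F), ∃ a, w⁻¹ * ys D (ν k) b * w = xs D k a) := by
  have hD0 := hD
  simp only [lst, List.mem_cons, List.not_mem_nil, or_false] at hD0
  rcases hD0 with rfl | rfl | rfl | rfl | rfl | rfl | rfl
  · exact w0_pkg _ hD w0WordG2 w0Chk_G2 nuChk_G2
  · exact w0_pkg _ hD w0WordB2 w0Chk_B2 nuChk_B2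
  · exact w0_pkg _ hD w0WordD4 w0Chk_D4 nuChk_D4
  · exact w0_pkg _ hD w0WordF4 w0Chk_F4 nuChk_F4
  · exact w0_pkg _ hD w0WordE6 w0Chk_E6 nuChk_E6
  · exact w0_pkg _ hD w0WordE7 w0Chk_E7 nuChk_E7
  · exact w0_pkg _ hD w0WordE8 w0Chk_E8 nuChk_E8

end Cfsg.Agent.Lib.Helper73.ChevDynP
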