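import Cfsg.Agent.Lib.Helper47.UniDefs

/-!
# S2676 piece ORTHDIM (job board, poster helper47)

The span `W` of a pre-frame family `N ^ a (x₁ i)` (`a < d₁ i`) is nondegenerate of dimension
`∑ d₁ i`; its orthogonal complement `P` has complementary dimension and is nondegenerate.
-/

set_option autoImplicit false

namespace Cfsg.Agent.Lib.Helper73.Uni

open Cfsg.Agent.Lib.Helper47 Module

universe u

variable {F : Type u} [Field F]

/-- key Gram computation: a combination of the family which is orthogonal to the family has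
zero coefficients -/
theorem orthdim_key {V : Type*} [AddCommGroup V] [Module F V] {B : V → V → F} {N : V →ₗ[F] V}
    (hB : IsSForm (RingHom.id F) (-1) B)
    {ι₁ : Type*} [Fintype ι₁] (d₁ : ι₁ → ℕ) (G₁ : ι₁ → ι₁ → F) (x₁ : ι₁ → V)
    (hgram : ∀ i k a b, B ((N ^ a) (x₁ i)) ((N ^ b) (x₁ k))
      = if d₁ i = d₁ k ∧ a + b + 1 = d₁ i then (-1) ^ a * G₁ i k else 0)
    (hnd₁ : ∀ j, Nondeg (layerForm d₁ G₁ j))
    (c : ((i : ι₁) × Fin (d₁ i)) → F)
    (hc : ∀ t : (i : ι₁) × Fin (d₁ i),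
      B (∑ s : (i : ι₁) × Fin (d₁ i), c s • (N ^ (s.2 : ℕ)) (x₁ s.1))
        ((N ^ (t.2 : ℕ)) (x₁ t.1)) = 0) :
    ∀ s, c s = 0 := by
  classical
  rintro ⟨i0, a0⟩
  obtain ⟨c', hc'⟩ : ∃ c' : ι₁ → F,
      c' = fun i => if h : (a0 : ℕ) < d₁ i then c ⟨i, ⟨a0, h⟩⟩ else 0 := ⟨_, rfl⟩
  have hsum : ∀ k : ι₁, d₁ k = d₁ i0 →
      ∑ i, (if d₁ i = d₁ i0 then c' i * G₁ i k else 0) = 0 := by
    intro k hk
    have ha0 := a0.2
    have hb : d₁ i0 - 1 - (a0 : ℕ) < d₁ k := by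
      rw [hk]
      omega
    have h0 := hc ⟨k, ⟨d₁ i0 - 1 - a0, hb⟩⟩
    have hexp : B (∑ s : (i : ι₁) × Fin (d₁ i), c s • (N ^ (s.2 : ℕ)) (x₁ s.1))
        ((N ^ (d₁ i0 - 1 - (a0 : ℕ))) (x₁ k))
        = ∑ s : (i : ι₁) × Fin (d₁ i), c s * B ((N ^ (s.2 : ℕ)) (x₁ s.1))
            ((N ^ (d₁ i0 - 1 - (a0 : ℕ))) (x₁ k)) := by
      have h1 := map_sum (hB.lin ((N ^ (d₁ i0 - 1 - (a0 : ℕ))) (x₁ k)))
        (fun s : (i : ι₁) × Fin (d₁ i) => c s • (N ^ (s.2 : ℕ)) (x₁ s.1)) Finset.univ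
      simp only [map_smul, IsSForm.lin_apply, smul_eq_mul] at h1
      exact h1
    have h0' : ∑ s : (i : ι₁) × Fin (d₁ i), c s * B ((N ^ (s.2 : ℕ)) (x₁ s.1))
            ((N ^ (d₁ i0 - 1 - (a0 : ℕ))) (x₁ k)) = 0 := by
      rw [← hexp]
      exact h0
    rw [Fintype.sum_sigma] at h0'
    have hinner : ∀ i, ∑ a : Fin (d₁ i), c ⟨i, a⟩ * B ((N ^ (a : ℕ)) (x₁ i))
          ((N ^ (d₁ i0 - 1 - (a0 : ℕ))) (x₁ k))
        = (-1) ^ (a0 : ℕ) * (if d₁ i = d₁ i0 then c' i * G₁ i k else 0) := by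
      intro i
      by_cases hi : d₁ i = d₁ i0
      · have ha0' : (a0 : ℕ) < d₁ i := by
          rw [hi]
          exact a0.2
        rw [if_pos hi, Finset.sum_eq_single (⟨a0, ha0'⟩ : Fin (d₁ i))]
        · rw [hgram, if_pos ⟨by rw [hi, hk], by
            show (a0 : ℕ) + (d₁ i0 - 1 - (a0 : ℕ)) + 1 = d₁ i
            omega⟩]
          rw [hc']
          simp only [dif_pos ha0']
          ring
        · intro a _ hne
          rw [hgram, if_neg, mul_zero]
          rintro ⟨-, h2⟩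
          apply hne
          apply Fin.ext
          show (a : ℕ) = (a0 : ℕ)
          omega
        · intro h
          exact absurd (Finset.mem_univ _) h
      · rw [if_neg hi, mul_zero]
        apply Finset.sum_eq_zero
        intro a _
        rw [hgram, if_neg, mul_zero]
        rintro ⟨h1, -⟩
        exact hi (h1.trans hk)
    rw [Finset.sum_congr rfl (fun i _ => hinner i), ← Finset.mul_sum] at h0'
    have hne : ((-1 : F)) ^ (a0 : ℕ) ≠ 0 := pow_ne_zero _ (neg_ne_zero.2 one_ne_zero)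
    exact (mul_eq_zero.1 h0').resolve_left hne
  have hv : (fun a : {i : ι₁ // d₁ i = d₁ i0} => c' a) = 0 := by
    apply hnd₁ (d₁ i0)
    intro w
    unfold layerForm gForm
    rw [Finset.sum_comm]
    apply Finset.sum_eq_zero
    intro b _
    have h1 := hsum b b.2
    rw [← Finset.sum_mul]
    have h2 : ∑ a : {i : ι₁ // d₁ i = d₁ i0}, c' a * G₁ a b
        = ∑ i, (if d₁ i = d₁ i0 then c' i * G₁ i b else 0) := by
      rw [← Finset.sum_filter]
      exact (Finset.sum_subtype (Finset.univ.filter (fun i => d₁ i = d₁ i0)) (by simp)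
        (fun i => c' i * G₁ i b)).symm
    rw [h2, h1, zero_mul]
  have h3 := congrFun hv ⟨i0, rfl⟩
  rw [hc'] at h3
  simp only [Pi.zero_apply] at h3
  rw [dif_pos a0.2] at h3
  exact h3

-- PIECE ORTHDIM
theorem finrank_orth_top [Finite F] {V : Type*} [AddCommGroup V] [Module F V]
    [FiniteDimensional F V] {B : V → V → F} {N : V →ₗ[F] V}
    (hB : IsSForm (RingHom.id F) (-1) B) (hnd : Nondeg B)
    {ι₁ : Type*} [Fintype ι₁] (d₁ : ι₁ → ℕ) (G₁ : ι₁ → ι₁ → F) (x₁ : ι₁ → V)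
    (hkill : ∀ i, (N ^ d₁ i) (x₁ i) = 0)
    (hgram : ∀ i k a b, B ((N ^ a) (x₁ i)) ((N ^ b) (x₁ k))
      = if d₁ i = d₁ k ∧ a + b + 1 = d₁ i then (-1) ^ a * G₁ i k else 0)
    (hnd₁ : ∀ j, Nondeg (layerForm d₁ G₁ j))
    (P : Submodule F V) (hP : ∀ v, v ∈ P ↔ ∀ i a, B ((N ^ a) (x₁ i)) v = 0) :
    ∑ i, d₁ i + finrank F P = finrank F V ∧ Nondeg (resForm B P) := by
  classical
  obtain ⟨e, he⟩ : ∃ e : ((i : ι₁) × Fin (d₁ i)) → V,
      e = fun s => (N ^ (s.2 : ℕ)) (x₁ s.1) := ⟨_, rfl⟩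
  have hli : LinearIndependent F e := by
    rw [Fintype.linearIndependent_iff]
    intro c hc0
    apply orthdim_key hB d₁ G₁ x₁ hgram hnd₁ c
    intro t
    rw [he] at hc0
    rw [show (∑ s : (i : ι₁) × Fin (d₁ i), c s • (N ^ (s.2 : ℕ)) (x₁ s.1)) = 0 from hc0]
    exact hB.zero_left _
  obtain ⟨W, hWdef⟩ : ∃ W : Submodule F V, W = Submodule.span F (Set.range e) := ⟨_, rfl⟩
  have hWfr : finrank F W = ∑ i, d₁ i := by
    rw [hWdef, finrank_span_eq_card hli, Fintype.card_sigma]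
    simp
  have heW : ∀ s, e s ∈ W := fun s => by
    rw [hWdef]
    exact Submodule.subset_span ⟨s, rfl⟩
  have hWnd : Nondeg (resForm B W) := by
    rintro ⟨w, hw⟩ h
    apply Subtype.ext
    show w = 0
    rw [hWdef] at hw
    obtain ⟨c, rfl⟩ := (Submodule.mem_span_range_iff_exists_fun F).1 hw
    have hc := orthdim_key hB d₁ G₁ x₁ hgram hnd₁ c (fun t => by
      have h1 : B (∑ s, c s • e s) (e t) = 0 := h ⟨e t, heW t⟩
      rw [he] at h1
      exact h1)
    simp [hc]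
  have hcompl := isCompl_orth hB hWnd
  have hPeq : P = hB.orth W := by
    ext v
    rw [hP, IsSForm.mem_orth]
    constructor
    · intro h x hx
      have hle : W ≤ LinearMap.ker (hB.lin v) := by
        rw [hWdef, Submodule.span_le]
        rintro _ ⟨s, rfl⟩
        rw [he]
        exact LinearMap.mem_ker.2 (h s.1 s.2)
      exact LinearMap.mem_ker.1 (hle hx)
    · intro h i a
      by_cases ha : a < d₁ i
      · have h1 := h _ (heW ⟨i, ⟨a, ha⟩⟩)
        rw [he] at h1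
        exact h1
      · have h0 : (N ^ a) (x₁ i) = 0 := by
          obtain ⟨m, rfl⟩ := Nat.exists_eq_add_of_le (not_lt.1 ha)
          rw [add_comm, pow_add, Module.End.mul_apply, hkill, map_zero]
        rw [h0]
        exact hB.zero_left v
  subst hPeq
  refine ⟨?_, nondeg_orth hB hnd hcompl⟩
  rw [← hWfr]
  exact Submodule.finrank_add_eq_of_isCompl hcompl

end Cfsg.Agent.Lib.Helper73.Uni
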