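import Cfsg.Agent.Lib.Helper96.SpTI

/-!
Invariant totally isotropic subspaces of even dimension for an isometry `T` with `T * T = -1`
of an alternating form over a finite field in which `-1` is not a square.
-/

set_option autoImplicit false
set_option linter.unusedSectionVars false
set_option linter.unusedVariables false

namespace Cfsg.Agent.Lib.Helper73.SpR2C

open Module Cfsg.Agent.Lib.Helper96.Sp

section Basic

variable {F : Type*} [Field F] {V : Type*} [AddCommGroup V] [Module F V]
  {B : LinearMap.BilinForm F V}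

theorem orth_span_singleton {X : Submodule F V} {v : V} (h : ∀ x ∈ X, B x v = 0) :
    Orth B X (Submodule.span F {v}) := by
  intro x hx y hy
  obtain ⟨b, rfl⟩ := Submodule.mem_span_singleton.mp hy
  rw [map_smul, h x hx, smul_zero]

theorem ti_span_singleton (hA : B.IsAlt) (v : V) :
    Orth B (Submodule.span F {v}) (Submodule.span F {v}) := by
  intro x hx y hy
  obtain ⟨a, rfl⟩ := Submodule.mem_span_singleton.mp hx
  obtain ⟨b, rfl⟩ := Submodule.mem_span_singleton.mp hy
  rw [map_smul, map_smul, LinearMap.smul_apply, hA v, smul_zero, smul_zero]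

variable [FiniteDimensional F V]

theorem finrank_sup_span_singleton (W : Submodule F V) {v : V} (hv : v ∉ W) :
    finrank F ↥(W ⊔ Submodule.span F {v}) = finrank F W + 1 := by
  have hv0 : v ≠ 0 := fun h => hv (h ▸ W.zero_mem)
  have h4 := Submodule.finrank_sup_add_finrank_inf_eq W (Submodule.span F {v})
  have h5 : W ⊓ Submodule.span F {v} = ⊥ := by
    rw [eq_bot_iff]
    rintro x ⟨hx1, hx2⟩
    obtain ⟨a, rfl⟩ := Submodule.mem_span_singleton.mp hx2
    rw [Submodule.mem_bot]
    by_cases ha : a = 0
    · rw [ha, zero_smul]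
    · exfalso
      apply hv
      have := W.smul_mem a⁻¹ hx1
      rwa [smul_smul, inv_mul_cancel₀ ha, one_smul] at this
  rw [h5, finrank_bot, finrank_span_singleton hv0] at h4
  omega

theorem finrank_sup_span_singleton_le (W : Submodule F V) (v : V) :
    finrank F ↥(W ⊔ Submodule.span F {v}) ≤ finrank F W + 1 := by
  by_cases hv : v ∈ W
  · have h : W ⊔ Submodule.span F {v} = W := by
      rw [sup_eq_left, Submodule.span_singleton_le_iff_mem]
      exact hv
    rw [h]
    omega
  · rw [finrank_sup_span_singleton W hv]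

/-- Extending an invariant totally isotropic subspace by `u` and `T u`. -/
theorem extend_ti (hA : B.IsAlt) (hN : ND B ⊤) (T : Module.End F V) (hT : Isom B T)
    (hTT : ∀ v, T (T v) = -v) (hns : ¬ IsSquare (-1 : F)) {W : Submodule F V}
    (hWinv : W.map T ≤ W) (hW : Orth B W W) {u : V} (huP : u ∈ B.orthogonal W) (huW : u ∉ W)
    (hu0 : B u (T u) = 0) :
    ∃ W' : Submodule F V, W'.map T ≤ W' ∧ Orth B W' W' ∧ finrank F W' = finrank F W + 2 := by
  have hTuP : T u ∈ B.orthogonal W := perp_invariant hN hT hWinv ⟨u, huP, rfl⟩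
  have hTW : ∀ w ∈ W, T w ∈ W := fun w hw => hWinv ⟨w, hw, rfl⟩
  have hW1ti : Orth B (W ⊔ Submodule.span F {u}) (W ⊔ Submodule.span F {u}) :=
    ti_sup hA hW (ti_span_singleton hA u) (orth_span_singleton (mem_perp_iff.mp huP))
  have hTu1 : T u ∉ W ⊔ Submodule.span F {u} := by
    intro h
    obtain ⟨w, hw, z, hz, e⟩ := Submodule.mem_sup.mp h
    obtain ⟨c, rfl⟩ := Submodule.mem_span_singleton.mp hz
    have e' : T w + c • T u = - u := by
      have := congrArg T e
      rw [map_add, map_smul, hTT] at this
      exact this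
    have e2 : (1 + c * c) • u = -(T w + c • w) := by
      rw [← e, smul_add, smul_smul] at e'
      rw [add_smul, one_smul]
      apply eq_neg_of_add_eq_zero_left
      calc u + (c * c) • u + (T w + c • w) = u + (T w + (c • w + (c * c) • u)) := by abel
        _ = u + -u := by rw [e']
        _ = 0 := by abel
    by_cases hc : 1 + c * c = 0
    · exact hns ⟨c, by linear_combination (-1 : F) * hc⟩
    · apply huW
      have h3 : (1 + c * c) • u ∈ W := by
        rw [e2]
        exact W.neg_mem (W.add_mem (hTW w hw) (W.smul_mem c hw))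
      have := W.smul_mem (1 + c * c)⁻¹ h3
      rwa [smul_smul, inv_mul_cancel₀ hc, one_smul] at this
  have hW1Tu : ∀ x ∈ W ⊔ Submodule.span F {u}, B x (T u) = 0 := by
    intro x hx
    obtain ⟨w, hw, z, hz, rfl⟩ := Submodule.mem_sup.mp hx
    obtain ⟨c, rfl⟩ := Submodule.mem_span_singleton.mp hz
    rw [map_add, map_smul, LinearMap.add_apply, LinearMap.smul_apply, hu0, smul_zero,
      mem_perp_iff.mp hTuP w hw, add_zero]
  refine ⟨W ⊔ Submodule.span F {u} ⊔ Submodule.span F {T u}, ?_,
    ti_sup hA hW1ti (ti_span_singleton hA (T u)) (orth_span_singleton hW1Tu), ?_⟩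
  · rw [Submodule.map_sup, Submodule.map_sup, Submodule.map_span, Submodule.map_span,
      Set.image_singleton, Set.image_singleton, hTT]
    refine sup_le (sup_le ?_ ?_) ?_
    · exact hWinv.trans (le_sup_left.trans le_sup_left)
    · rw [Submodule.span_singleton_le_iff_mem]
      exact Submodule.mem_sup_right (Submodule.mem_span_singleton_self _)
    · rw [Submodule.span_singleton_le_iff_mem]
      exact Submodule.neg_mem _ (Submodule.mem_sup_left
        (Submodule.mem_sup_right (Submodule.mem_span_singleton_self _)))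
  · rw [finrank_sup_span_singleton _ hTu1, finrank_sup_span_singleton _ huW]

/-- A vector `u` orthogonal to `W`, outside `W`, with `B u (T u) = 0`. -/
theorem exists_vec [Fintype F] (hA : B.IsAlt) (hN : ND B ⊤) (h2 : (2 : F) ≠ 0)
    (T : Module.End F V) (hT : Isom B T) (hTT : ∀ v, T (T v) = -v) {W : Submodule F V}
    (hWinv : W.map T ≤ W) (hW : Orth B W W) (hdim : 2 * (finrank F W + 2) ≤ finrank F V) :
    ∃ u, u ∈ B.orthogonal W ∧ u ∉ W ∧ B u (T u) = 0 := by
  have hd := finrank_inf_perp hA hN (le_top : W ≤ ⊤) hN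
  rw [top_inf_eq, finrank_top] at hd
  have hle : W ≤ B.orthogonal W := orth_iff_le_perp.mp hW
  have hlt : W < B.orthogonal W := by
    refine lt_of_le_of_ne hle (fun h => ?_)
    rw [← h] at hd
    omega
  obtain ⟨u, huP, huW⟩ := SetLike.exists_of_lt hlt
  by_cases ha : B u (T u) = 0
  · exact ⟨u, huP, huW, ha⟩
  have hTuP : T u ∈ B.orthogonal W := perp_invariant hN hT hWinv ⟨u, huP, rfl⟩
  have hZdim : finrank F ↥(W ⊔ Submodule.span F {u} ⊔ Submodule.span F {T u})
      ≤ finrank F W + 2 := by
    have h1 := finrank_sup_span_singleton_le (W ⊔ Submodule.span F {u}) (T u)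
    have h2 := finrank_sup_span_singleton_le W u
    omega
  have hdZ := finrank_inf_perp hA hN
    (le_top : W ⊔ Submodule.span F {u} ⊔ Submodule.span F {T u} ≤ ⊤) hN
  rw [top_inf_eq, finrank_top] at hdZ
  have hnle : ¬ B.orthogonal (W ⊔ Submodule.span F {u} ⊔ Submodule.span F {T u}) ≤ W := by
    intro h
    have := Submodule.finrank_mono h
    omega
  obtain ⟨w, hwZ, hwW⟩ := SetLike.not_le_iff_exists.mp hnle
  have hwZ' := mem_perp_iff.mp hwZ
  have hwP : w ∈ B.orthogonal W :=
    LinearMap.BilinForm.orthogonal_le (le_sup_left.trans le_sup_left) hwZ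
  have e1 : B u w = 0 := hwZ' u
    (Submodule.mem_sup_left (Submodule.mem_sup_right (Submodule.mem_span_singleton_self _)))
  have e2 : B (T u) w = 0 := hwZ' (T u)
    (Submodule.mem_sup_right (Submodule.mem_span_singleton_self _))
  have e3 : B w u = 0 := by rw [alt_swap hA, e1, neg_zero]
  have e4 : B w (T u) = 0 := by rw [alt_swap hA, e2, neg_zero]
  have e5 : B u (T w) = 0 := by rw [← hT u (T w), hTT, map_neg, e2, neg_zero]
  have e6 : B (T u) (T w) = 0 := by rw [hT, e1]
  have e7 : B (T u) u = - B u (T u) := alt_swap hA (T u) u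
  have e8 : B u u = 0 := hA u
  have e9 : B (T u) (T u) = 0 := hA _
  have hodd : Fintype.card F % 2 = 1 := by
    apply FiniteField.odd_card_of_char_ne_two
    intro h
    apply h2
    have := CharP.cast_eq_zero F (ringChar F)
    rw [h] at this
    exact_mod_cast this
  obtain ⟨x, y, hxy⟩ := FiniteField.exists_root_sum_quadratic
    (f := (Polynomial.X : Polynomial F) ^ 2)
    (g := (Polynomial.X : Polynomial F) ^ 2 - Polynomial.C (-(B w (T w)) / B u (T u)))
    (Polynomial.degree_X_pow 2) (Polynomial.degree_X_pow_sub_C (by norm_num) _) hodd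
  simp only [Polynomial.eval_pow, Polynomial.eval_X, Polynomial.eval_sub, Polynomial.eval_C]
    at hxy
  have hxy' : (x ^ 2 + y ^ 2) * B u (T u) + B w (T w) = 0 := by
    field_simp at hxy
    linear_combination hxy
  refine ⟨x • u + y • T u + w,
    Submodule.add_mem _ (Submodule.add_mem _ (Submodule.smul_mem _ _ huP)
      (Submodule.smul_mem _ _ hTuP)) hwP, ?_, ?_⟩
  · intro hmem
    have f1 := mem_perp_iff.mp hTuP _ hmem
    have f2 := mem_perp_iff.mp huP _ hmem
    simp only [map_add, map_smul, LinearMap.add_apply, LinearMap.smul_apply, smul_eq_mul,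
      e3, e4, e7, e8, e9, mul_zero, add_zero, zero_add, mul_neg, neg_eq_zero] at f1 f2
    have hx0 : x = 0 := by
      rcases mul_eq_zero.mp f1 with h | h
      · exact h
      · exact absurd h ha
    have hy0 : y = 0 := by
      rcases mul_eq_zero.mp f2 with h | h
      · exact h
      · exact absurd h ha
    rw [hx0, hy0, zero_smul, zero_smul, zero_add, zero_add] at hmem
    exact hwW hmem
  · simp only [map_add, map_smul, map_neg, hTT, LinearMap.add_apply, LinearMap.smul_apply,
      LinearMap.neg_apply, smul_eq_mul, e1, e2, e3, e4, e5, e6, e7, e8, e9, mul_zero,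
      add_zero, zero_add, mul_neg, neg_zero, neg_neg]
    linear_combination hxy'

end Basic

/-- An isometry `T` with `T * T = -1` of a nondegenerate alternating form over a finite field
of odd characteristic in which `-1` is not a square leaves invariant a totally isotropic
subspace of every even dimension `m` with `2 * m ≤ dim V`. -/
theorem exists_ti_inv_of_sq_neg_even {F : Type*} [Field F] [Fintype F] {V : Type*}
    [AddCommGroup V] [Module F V] [FiniteDimensional F V] {B : LinearMap.BilinForm F V}
    (hA : B.IsAlt) (hN : ND B ⊤) (h2 : (2 : F) ≠ 0) (T : Module.End F V) (hT : Isom B T)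
    (hsq : T * T = -1) (hns : ¬ IsSquare (-1 : F)) (m : ℕ) (hme : Even m)
    (hm : 2 * m ≤ finrank F V) :
    ∃ W : Submodule F V, W.map T ≤ W ∧ Orth B W W ∧ finrank F W = m := by
  have hTT : ∀ v, T (T v) = -v := by
    intro v
    have := congrArg (fun S : Module.End F V => S v) hsq
    simpa [Module.End.mul_apply] using this
  obtain ⟨k, rfl⟩ := hme
  induction k with
  | zero =>
    refine ⟨⊥, ?_, ?_, ?_⟩
    · rw [Submodule.map_bot]
    · intro u hu v hv
      rw [Submodule.mem_bot] at hu
      rw [hu, map_zero, LinearMap.zero_apply]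
    · simp
  | succ k ih =>
    obtain ⟨W, hWinv, hW, hWk⟩ := ih (by omega)
    obtain ⟨u, huP, huW, hu0⟩ := exists_vec hA hN h2 T hT hTT hWinv hW (by omega)
    obtain ⟨W', h1, h2', h3⟩ := extend_ti hA hN T hT hTT hns hWinv hW huP huW hu0
    exact ⟨W', h1, h2', by omega⟩

end Cfsg.Agent.Lib.Helper73.SpR2C
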