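import Mathlib

/-!
# S5955 piece TI-CNT-B (job board, poster helper96)

The number of hyperplanes of a `(j+1)`-dimensional subspace over a finite field of
characteristic `p` is `≡ 1 (mod p)`.
-/

set_option autoImplicit false

namespace Cfsg.Agent.Lib.Helper73.TiCntB

open Module

/-- TI-CNT-B. -/
theorem card_hyperplanes_modEq {F : Type*} [Field F] [Fintype F] {p : ℕ} [Fact p.Prime]
    [CharP F p] {V : Type*} [AddCommGroup V] [Module F V] [FiniteDimensional F V]
    (W₁ : Submodule F V) (j : ℕ) (hj : finrank F W₁ = j + 1) :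
    Nat.card {W₀ : Submodule F V // W₀ ≤ W₁ ∧ finrank F W₀ = j} ≡ 1 [MOD p] := by
  classical
  have e1 : {U₀ : Submodule F W₁ // finrank F U₀ = j} ≃
      {W₀ : Submodule F V // W₀ ≤ W₁ ∧ finrank F W₀ = j} :=
    (Equiv.subtypeEquiv (Submodule.MapSubtype.orderIso W₁).toEquiv (fun U₀ => by
      show finrank F U₀ = j ↔ finrank F (U₀.map W₁.subtype) = j
      rw [Submodule.finrank_map_subtype_eq])).trans
      (Equiv.subtypeSubtypeEquivSubtypeInter (fun W₀ : Submodule F V => W₀ ≤ W₁)
        (fun W₀ => finrank F W₀ = j))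
  have e2 : {U₀ : Submodule F W₁ // finrank F U₀ = j} ≃
      {Φ : Submodule F (Module.Dual F W₁) // finrank F Φ = 1} :=
    Equiv.subtypeEquiv
      ((Subspace.orderIsoFiniteDimensional (K := F) (V := W₁)).toEquiv.trans OrderDual.ofDual)
      (fun U₀ => by
        show finrank F U₀ = j ↔ finrank F U₀.dualAnnihilator = 1
        have := Subspace.finrank_add_finrank_dualAnnihilator_eq U₀
        rw [hj] at this
        omega)
  have e3 := Projectivization.equivSubmodule F (Module.Dual F W₁)
  have hcard : Nat.card {W₀ : Submodule F V // W₀ ≤ W₁ ∧ finrank F W₀ = j} =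
      ∑ i ∈ Finset.range (j + 1), Nat.card F ^ i := by
    rw [← Nat.card_congr e1, Nat.card_congr e2, ← Nat.card_congr e3]
    exact Projectivization.card_of_finrank F (Module.Dual F W₁)
      (by rw [Subspace.dual_finrank_eq, hj])
  rw [hcard, Finset.sum_range_succ']
  have hp : p ∣ Nat.card F := by
    rw [Nat.card_eq_fintype_card]
    exact (CharP.cast_eq_zero_iff F p _).1 (Nat.cast_card_eq_zero F)
  have h0 : ∑ i ∈ Finset.range j, Nat.card F ^ (i + 1) ≡ 0 [MOD p] := by
    rw [Nat.modEq_zero_iff_dvd]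
    apply Finset.dvd_sum
    intro i _
    exact Dvd.dvd.trans hp (dvd_pow_self _ (Nat.succ_ne_zero i))
  have h1 := h0.add_right (Nat.card F ^ 0)
  simpa using h1

end Cfsg.Agent.Lib.Helper73.TiCntB
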