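import Mathlib
import Cfsg.Prelude.Def_LieTypeDatum

/-!
Piece GT3-PGO for S2702: `|PGO(Q)| ≤ |O(Q)|` for the standard quadratic forms of plus and
minus type over a finite field (the multiplier homomorphism on the similarity group).
-/

set_option autoImplicit false

namespace Cfsg.Agent.Lib.Helper73.GT3PGO

open Matrix

section Generic

variable {ι : Type} [Fintype ι] [DecidableEq ι] {F : Type*} [Field F]

theorem mem_sim_iff (Q : (ι → F) → F) (g : GL ι F) :
    g ∈ Cfsg.Geo.quadSimilarityGroup (F := F) Q ↔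
      ∃ c : Fˣ, ∀ v, Q ((g : Matrix ι ι F) *ᵥ v) = (c : F) * Q v := Iff.rfl

theorem mem_iso_iff (Q : (ι → F) → F) (g : GL ι F) :
    g ∈ Cfsg.isometryGroup F Q ↔ ∀ v, Q ((g : Matrix ι ι F) *ᵥ v) = Q v := by
  constructor
  · intro h v
    exact h v v
  · intro h u _
    exact h u

omit [Fintype ι] [DecidableEq ι] in
theorem mult_unique {Q : (ι → F) → F} (hne : ∃ v, Q v ≠ 0) {c d : Fˣ}
    (h : ∀ v, (c : F) * Q v = (d : F) * Q v) : c = d := by
  obtain ⟨v, hv⟩ := hne
  exact Units.ext (mul_right_cancel₀ hv (h v))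

/-- The multiplier of a similarity. -/
noncomputable def multFun (Q : (ι → F) → F)
    (g : Cfsg.Geo.quadSimilarityGroup (F := F) Q) : Fˣ :=
  Classical.choose ((mem_sim_iff Q g).mp g.2)

theorem multFun_spec (Q : (ι → F) → F) (g : Cfsg.Geo.quadSimilarityGroup (F := F) Q)
    (v : ι → F) :
    Q (((g : GL ι F) : Matrix ι ι F) *ᵥ v) = (multFun Q g : F) * Q v :=
  Classical.choose_spec ((mem_sim_iff Q g).mp g.2) v

/-- The multiplier homomorphism. -/
noncomputable def mult (Q : (ι → F) → F) (hne : ∃ v, Q v ≠ 0) :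
    Cfsg.Geo.quadSimilarityGroup (F := F) Q →* Fˣ where
  toFun g := multFun Q g
  map_one' := by
    apply mult_unique hne
    intro v
    rw [← multFun_spec Q 1 v]
    simp
  map_mul' g h := by
    apply mult_unique hne
    intro v
    rw [← multFun_spec Q (g * h) v, Units.val_mul, mul_assoc, ← multFun_spec Q h v,
      ← multFun_spec Q g, Matrix.mulVec_mulVec]
    rfl

theorem mult_apply (Q : (ι → F) → F) (hne : ∃ v, Q v ≠ 0)
    (g : Cfsg.Geo.quadSimilarityGroup (F := F) Q) : mult Q hne g = multFun Q g := rfl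

theorem card_pgo_le [Fintype F] [Nonempty ι] (Q : (ι → F) → F)
    (hQ : ∀ (c : F) (v : ι → F), Q (c • v) = c ^ 2 * Q v) (hne : ∃ v, Q v ≠ 0) :
    Nat.card (Cfsg.PGO F Q) ≤ Nat.card (Cfsg.isometryGroup F Q) := by
  have h1 := Subgroup.card_eq_card_quotient_mul_card_subgroup
    ((Cfsg.Geo.scalars ι F).subgroupOf (Cfsg.Geo.quadSimilarityGroup (F := F) Q))
  have h2 := Subgroup.card_eq_card_quotient_mul_card_subgroup (mult Q hne).ker
  have h3 : Nat.card (Cfsg.Geo.quadSimilarityGroup (F := F) Q ⧸ (mult Q hne).ker) ≤ Nat.card Fˣ :=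
    Nat.card_le_card_of_injective _ (QuotientGroup.kerLift_injective (mult Q hne))
  have h4 : Nat.card (mult Q hne).ker ≤ Nat.card (Cfsg.isometryGroup F Q) := by
    refine Nat.card_le_card_of_injective
      (fun x => ⟨((x : Cfsg.Geo.quadSimilarityGroup (F := F) Q) : GL ι F), ?_⟩) ?_
    · rw [mem_iso_iff]
      intro v
      have hx : mult Q hne x = 1 := x.2
      rw [multFun_spec Q x v, ← mult_apply Q hne, hx, Units.val_one, one_mul]
    · intro x y hxy
      apply Subtype.ext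
      apply Subtype.ext
      have h := congrArg Subtype.val hxy
      exact h
  have hsc : ∀ c : Fˣ, Units.map (Matrix.scalar ι : F →+* Matrix ι ι F).toMonoidHom c ∈
      Cfsg.Geo.quadSimilarityGroup (F := F) Q := by
    intro c
    rw [mem_sim_iff]
    refine ⟨c ^ 2, fun v => ?_⟩
    have hv : ((Units.map (Matrix.scalar ι : F →+* Matrix ι ι F).toMonoidHom c : GL ι F) :
        Matrix ι ι F) *ᵥ v = (c : F) • v := by
      show (Matrix.scalar ι (c : F)) *ᵥ v = (c : F) • v
      rw [Matrix.scalar_apply, ← Matrix.smul_one_eq_diagonal, Matrix.smul_mulVec,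
        Matrix.one_mulVec]
    rw [hv, hQ, Units.val_pow_eq_pow_val]
  have h5 : Nat.card Fˣ ≤ Nat.card ((Cfsg.Geo.scalars ι F).subgroupOf
      (Cfsg.Geo.quadSimilarityGroup (F := F) Q)) := by
    refine Nat.card_le_card_of_injective
      (fun c => ⟨⟨Units.map (Matrix.scalar ι : F →+* Matrix ι ι F).toMonoidHom c, hsc c⟩, ?_⟩) ?_
    · rw [Subgroup.mem_subgroupOf]
      exact ⟨c, rfl⟩
    · intro c d hcd
      have h6 : (Units.map (Matrix.scalar ι : F →+* Matrix ι ι F).toMonoidHom c : GL ι F) =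
          Units.map (Matrix.scalar ι : F →+* Matrix ι ι F).toMonoidHom d := by
        have h := congrArg (fun x : ((Cfsg.Geo.scalars ι F).subgroupOf
          (Cfsg.Geo.quadSimilarityGroup (F := F) Q)) =>
          ((x : Cfsg.Geo.quadSimilarityGroup (F := F) Q) : GL ι F)) hcd
        exact h
      have h7 : Matrix.scalar ι (c : F) = Matrix.scalar ι (d : F) :=
        congrArg (fun x : GL ι F => (x : Matrix ι ι F)) h6
      exact Units.ext (Matrix.scalar_inj.mp h7)
  have h6 : 0 < Nat.card ((Cfsg.Geo.scalars ι F).subgroupOf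
      (Cfsg.Geo.quadSimilarityGroup (F := F) Q)) := Nat.card_pos
  have h7 : Nat.card (Cfsg.PGO F Q) * Nat.card ((Cfsg.Geo.scalars ι F).subgroupOf
      (Cfsg.Geo.quadSimilarityGroup (F := F) Q)) ≤
      Nat.card (Cfsg.isometryGroup F Q) * Nat.card ((Cfsg.Geo.scalars ι F).subgroupOf
      (Cfsg.Geo.quadSimilarityGroup (F := F) Q)) := by
    calc Nat.card (Cfsg.PGO F Q) * Nat.card ((Cfsg.Geo.scalars ι F).subgroupOf
          (Cfsg.Geo.quadSimilarityGroup (F := F) Q))
        = Nat.card (Cfsg.Geo.quadSimilarityGroup (F := F) Q) := h1.symm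
      _ = Nat.card (Cfsg.Geo.quadSimilarityGroup (F := F) Q ⧸ (mult Q hne).ker) *
          Nat.card (mult Q hne).ker := h2
      _ ≤ Nat.card Fˣ * Nat.card (Cfsg.isometryGroup F Q) := Nat.mul_le_mul h3 h4
      _ ≤ Nat.card ((Cfsg.Geo.scalars ι F).subgroupOf
          (Cfsg.Geo.quadSimilarityGroup (F := F) Q)) * Nat.card (Cfsg.isometryGroup F Q) :=
        Nat.mul_le_mul_right _ h5
      _ = _ := Nat.mul_comm _ _
  exact Nat.le_of_mul_le_mul_right h7 h6

end Generic

/-- GT3-PGO -/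
theorem card_pgo_plus_le {F : Type*} [Field F] [Fintype F] (m : ℕ) (hm : 1 ≤ m) :
    Nat.card (Cfsg.PGO F (Cfsg.quadFormPlus m F)) ≤
      Nat.card (Cfsg.isometryGroup F (Cfsg.quadFormPlus m F)) := by
  haveI : Nonempty (Fin m ⊕ Fin m) := ⟨Sum.inl ⟨0, hm⟩⟩
  apply card_pgo_le
  · intro c v
    unfold Cfsg.quadFormPlus
    rw [Finset.mul_sum]
    refine Finset.sum_congr rfl (fun i _ => ?_)
    simp only [Pi.smul_apply, smul_eq_mul]
    ring
  · refine ⟨Sum.elim (fun i => if i = (⟨0, hm⟩ : Fin m) then 1 else 0)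
      (fun i => if i = (⟨0, hm⟩ : Fin m) then 1 else 0), ?_⟩
    unfold Cfsg.quadFormPlus
    simp

theorem card_pgo_minus_le {F : Type*} [Field F] [Fintype F] (k : ℕ) (a b : F) :
    Nat.card (Cfsg.PGO F (Cfsg.quadFormMinus k F a b)) ≤
      Nat.card (Cfsg.isometryGroup F (Cfsg.quadFormMinus k F a b)) := by
  haveI : Nonempty ((Fin k ⊕ Fin k) ⊕ Fin 2) := ⟨Sum.inr 0⟩
  apply card_pgo_le
  · intro c v
    unfold Cfsg.quadFormMinus
    rw [mul_add, Finset.mul_sum]
    congr 1
    · refine Finset.sum_congr rfl (fun i _ => ?_)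
      simp only [Pi.smul_apply, smul_eq_mul]
      ring
    · simp only [Pi.smul_apply, smul_eq_mul]
      ring
  · refine ⟨Sum.elim (fun _ => 0) (fun j => if j = 0 then 1 else 0), ?_⟩
    unfold Cfsg.quadFormMinus
    simp

end Cfsg.Agent.Lib.Helper73.GT3PGO
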