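import Cfsg.Agent.Lib.Helper27.ChevDyn
import Cfsg.Agent.Lib.Helper25.ChevGraphData

/-!
# Piece PG2: the graph automorphism of `D₄` exchanging the nodes 2 and 3

Same method as for S1081 (`Helper25.graph_aut_of_chk`), with the table of the transposition.
-/

set_option autoImplicit false

namespace Cfsg.Agent.Lib.Helper73.ChevDynP

open Cfsg.Lie Cfsg.Agent.Lib.Helper27.PslnOut Cfsg.Agent.Lib.Helper27.DynOut
  Cfsg.Agent.Lib.Helper27.ChevDyn
open Cfsg.Agent.Lib.Helper24 Cfsg.Agent.Lib.Helper25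

/-- The packed root permutation of the graph automorphism of `D₄` exchanging nodes 2 and 3. -/
def gPiD4c : ℕ := 566073054096128939321680348723185459246130506873807503616

/-- The sign mask of the graph automorphism of `D₄` exchanging nodes 2 and 3 (all signs `+`). -/
def gEpsD4c : ℕ := 0

set_option maxHeartbeats 4000000 in
theorem gchk_D4c : allR (fastChk1 chevD4 (pk8 gPiD4c) (pk8 gPiD4c) (sgn gEpsD4c)
    (permC [0, 1, 3, 2])) 0 chevD4.nroots = true := by decide +kernel

theorem ginv_D4c : invChk chevD4 (pk8 gPiD4c) (pk8 gPiD4c) (sgn gEpsD4c) (sgn gEpsD4c)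
    (permC [0, 1, 3, 2]) (permC [0, 1, 3, 2]) = true := by decide +kernel

theorem gsimp_D4c : simpChk chevD4 (pk8 gPiD4c) (sgn gEpsD4c) [0, 1, 3, 2] = true := by
  decide +kernel

variable {F : Type*} [Field F]

/-- PG2: the graph automorphism of `D₄` exchanging the nodes 2 and 3 (as S1081) -/
theorem pieceG2 :
    ∃ α : ↥(chevD4.group F) ≃* ↥(chevD4.group F), ∀ (g : ↥(chevD4.group F)) (i : ℕ) (t : F),
      i < chevD4.rank →
      (((g : GL chevD4.Idx F) : Matrix chevD4.Idx chevD4.Idx F) = chevD4.x F (chevD4.simple i) t →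
        ((α g : GL chevD4.Idx F) : Matrix chevD4.Idx chevD4.Idx F) =
          chevD4.x F (chevD4.simple ([0, 1, 3, 2].getD i 0)) t) ∧
      (((g : GL chevD4.Idx F) : Matrix chevD4.Idx chevD4.Idx F) =
          chevD4.x F (chevD4.neg (chevD4.simple i)) t →
        ((α g : GL chevD4.Idx F) : Matrix chevD4.Idx chevD4.Idx F) =
          chevD4.x F (chevD4.neg (chevD4.simple ([0, 1, 3, 2].getD i 0))) t) :=
  graph_aut_of_chk chevD4 [0, 1, 3, 2] _ _ _ _ _ _ gtab_D4 (sgn_cases _) (sgn_cases _)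
    gchk_D4c gchk_D4c ginv_D4c ginv_D4c gsimp_D4c

end Cfsg.Agent.Lib.Helper73.ChevDynP
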