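import Cfsg.Agent.Lib.Helper70.D11Defs

/-!
Piece NORM for S0679: a nonsolvable subgroup of `Perm (Fin 11)` containing the cycle `c0`
contains `m3 : x ↦ 3 x` or `u : x ↦ -x` (Burnside's transfer theorem).
-/

set_option autoImplicit false

namespace Cfsg.Agent.Lib.Helper73.D11

open Equiv Cfsg.Agent.Lib.Helper70.D11

open Fin.CommRing

theorem c0_apply' (x : Fin 11) : c0 x = x + 1 := rfl

theorem m3_apply' (x : Fin 11) : m3 x = 3 * x := rfl

theorem u_apply' (x : Fin 11) : u x = -x := rfl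

theorem c0_pow_apply' (k : ℕ) (x : Fin 11) : (c0 ^ k) x = x + (k : Fin 11) := by
  induction k generalizing x with
  | zero => simp
  | succ k ih =>
    rw [pow_succ, Equiv.Perm.mul_apply, ih, c0_apply']
    push_cast
    ring

theorem norm_aux (G : Subgroup P11) (hc : c0 ∈ G) (g : P11) (hg : g ∈ G) (a : ℕ)
    (h : g * c0 * g⁻¹ = c0 ^ a) (hne : g * c0 ≠ c0 * g) : m3 ∈ G ∨ u ∈ G := by
  have h1 : g * c0 = c0 ^ a * g := by rw [← h]; group
  have hstep : ∀ x, g (x + 1) = g x + (a : Fin 11) := by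
    intro x
    have h2 := congrArg (fun f : P11 => f x) h1
    simpa [Equiv.Perm.mul_apply, c0_apply', c0_pow_apply'] using h2
  have hlin : ∀ k : ℕ, g (k : Fin 11) = (a : Fin 11) * (k : Fin 11) + g 0 := by
    intro k
    induction k with
    | zero => simp
    | succ k ih =>
      rw [Nat.cast_succ, hstep, ih]
      ring
  have hlin' : ∀ x : Fin 11, g x = (a : Fin 11) * x + g 0 := by
    intro x
    have h2 := hlin x.val
    rwa [Fin.cast_val_eq_self] at h2
  have ha1 : (a : Fin 11) ≠ 1 := by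
    intro ha
    apply hne
    rw [h1]
    apply Equiv.ext
    intro x
    rw [Equiv.Perm.mul_apply, Equiv.Perm.mul_apply, c0_pow_apply', c0_apply', ha]
  have hmuG : c0 ^ ((- g 0 : Fin 11) : ℕ) * g ∈ G := G.mul_mem (G.pow_mem hc _) hg
  have hmu_apply : ∀ x, (c0 ^ ((- g 0 : Fin 11) : ℕ) * g) x = (a : Fin 11) * x := by
    intro x
    rw [Equiv.Perm.mul_apply, c0_pow_apply', hlin', Fin.cast_val_eq_self]
    ring
  have ha0 : (a : Fin 11) ≠ 0 := by
    intro ha
    have e0 := hmu_apply 0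
    have e1 := hmu_apply 1
    rw [ha] at e0 e1
    have h2 : (c0 ^ ((- g 0 : Fin 11) : ℕ) * g) 0 = (c0 ^ ((- g 0 : Fin 11) : ℕ) * g) 1 := by
      rw [e0, e1]
      simp
    exact absurd ((c0 ^ ((- g 0 : Fin 11) : ℕ) * g).injective h2) (by decide)
  have hpow : ∀ (j : ℕ) (x : Fin 11),
      ((c0 ^ ((- g 0 : Fin 11) : ℕ) * g) ^ j) x = (a : Fin 11) ^ j * x := by
    intro j
    induction j with
    | zero => intro x; simp
    | succ j ih =>
      intro x
      rw [pow_succ, Equiv.Perm.mul_apply, hmu_apply, ih]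
      ring
  have key : ∀ b : Fin 11, b ≠ 0 → b ≠ 1 →
      (b ^ 1 = 3 ∨ b ^ 3 = 3 ∨ b ^ 2 = 3 ∨ b ^ 4 = 3) ∨ b ^ 5 = -1 := by decide
  have hm3 : ∀ j : ℕ, (a : Fin 11) ^ j = 3 → m3 ∈ G := by
    intro j hj
    have h2 : m3 = (c0 ^ ((- g 0 : Fin 11) : ℕ) * g) ^ j := by
      apply Equiv.ext
      intro x
      rw [hpow, hj, m3_apply']
    rw [h2]
    exact G.pow_mem hmuG _
  rcases key _ ha0 ha1 with (h3 | h3 | h3 | h3) | h5
  · exact Or.inl (hm3 _ h3)
  · exact Or.inl (hm3 _ h3)
  · exact Or.inl (hm3 _ h3)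
  · exact Or.inl (hm3 _ h3)
  · right
    have h2 : u = (c0 ^ ((- g 0 : Fin 11) : ℕ) * g) ^ 5 := by
      apply Equiv.ext
      intro x
      rw [hpow, h5, u_apply']
      ring
    rw [h2]
    exact G.pow_mem hmuG _

theorem norm_cases (G : Subgroup P11) (hc : c0 ∈ G) (hns : ¬ Group.IsSolvable G) :
    m3 ∈ G ∨ u ∈ G := by
  by_contra hcon
  apply hns
  haveI : Fact (Nat.Prime 11) := ⟨by norm_num⟩
  have hord0 : orderOf c0 = 11 := by
    apply orderOf_eq_prime
    · apply Equiv.ext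
      intro x
      rw [c0_pow_apply']
      simp
    · intro h
      have h2 := congrArg (fun f : P11 => f 0) h
      simp only [c0_apply', Equiv.Perm.coe_one, id_eq] at h2
      exact absurd h2 (by decide)
  have hord : orderOf (⟨c0, hc⟩ : G) = 11 := (Subgroup.orderOf_mk c0 hc).trans hord0
  have hcardP : Nat.card (Subgroup.zpowers (⟨c0, hc⟩ : G)) = 11 := by
    rw [Nat.card_zpowers, hord]
  have hdvd : Nat.card G ∣ Nat.factorial 11 := by
    have h2 := Subgroup.card_subgroup_dvd_card G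
    rwa [Nat.card_eq_fintype_card (α := P11), Fintype.card_perm, Fintype.card_fin] at h2
  have h11 : 11 ∣ Nat.card G := by
    have h2 := orderOf_dvd_natCard (⟨c0, hc⟩ : G)
    rwa [hord] at h2
  have h121 : ¬ 11 ^ 2 ∣ Nat.card G := fun h => absurd (h.trans hdvd) (by decide)
  have hfac : (Nat.card G).factorization 11 = 1 := by
    have hne : Nat.card G ≠ 0 := Nat.card_pos.ne'
    have h1 := (Nat.Prime.pow_dvd_iff_le_factorization (by norm_num : Nat.Prime 11) hne
      (k := 1)).mp (by simpa using h11)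
    have h2 := mt (Nat.Prime.pow_dvd_iff_le_factorization (by norm_num : Nat.Prime 11) hne
      (k := 2)).mpr h121
    omega
  obtain ⟨P, hPcoe⟩ : ∃ P : Sylow 11 G, (P : Subgroup G) = Subgroup.zpowers (⟨c0, hc⟩ : G) :=
    ⟨Sylow.ofCard (Subgroup.zpowers (⟨c0, hc⟩ : G)) (by rw [hcardP, hfac, pow_one]),
      Sylow.coe_ofCard _ _⟩
  have hNC : Subgroup.normalizer ((P : Subgroup G) : Set G) ≤
      Subgroup.centralizer ((P : Subgroup G) : Set G) := by
    intro g hg
    rw [Subgroup.mem_normalizer_iff] at hg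
    have h1 : g * (⟨c0, hc⟩ : G) * g⁻¹ ∈ Subgroup.zpowers (⟨c0, hc⟩ : G) := by
      rw [← hPcoe]
      exact (hg _).mp (by rw [hPcoe]; exact Subgroup.mem_zpowers _)
    obtain ⟨a, ha⟩ : ∃ a : ℕ, (⟨c0, hc⟩ : G) ^ a = g * (⟨c0, hc⟩ : G) * g⁻¹ :=
      (Submonoid.mem_powers_iff _ _).mp (mem_powers_iff_mem_zpowers.mpr h1)
    have ha' : (g : P11) * c0 * (g : P11)⁻¹ = c0 ^ a := by
      have h2 := congrArg Subtype.val ha
      simpa using h2.symm
    have hcomm : (g : P11) * c0 = c0 * (g : P11) := by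
      by_contra hne
      exact hcon (norm_aux G hc g g.2 a ha' hne)
    rw [Subgroup.mem_centralizer_iff]
    intro h hh
    rw [SetLike.mem_coe, hPcoe, Subgroup.mem_zpowers_iff] at hh
    obtain ⟨n, rfl⟩ := hh
    have hcg : Commute (⟨c0, hc⟩ : G) g := Subtype.ext hcomm.symm
    exact (hcg.zpow_left n).eq
  have hcomp := MonoidHom.ker_transferSylow_isComplement' P hNC
  have hKcard : ¬ 11 ∣ Nat.card (MonoidHom.transferSylow P hNC).ker :=
    MonoidHom.not_dvd_card_ker_transferSylow P hNC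
  haveI : MulAction.IsPretransitive G (Fin 11) := by
    refine ⟨fun x y => ⟨⟨c0 ^ ((y - x : Fin 11) : ℕ), G.pow_mem hc _⟩, ?_⟩⟩
    show (c0 ^ ((y - x : Fin 11) : ℕ)) x = y
    rw [c0_pow_apply', Fin.cast_val_eq_self]
    ring
  haveI : MulAction.IsPreprimitive G (Fin 11) :=
    MulAction.IsPreprimitive.of_prime_card
      (by rw [Nat.card_eq_fintype_card, Fintype.card_fin]; norm_num)
  have hKtriv : (MonoidHom.transferSylow P hNC).ker = ⊥ := by
    by_contra hKne
    have hfix : MulAction.fixedPoints (MonoidHom.transferSylow P hNC).ker (Fin 11) ≠ Set.univ := by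
      intro hfix
      apply hKne
      rw [eq_bot_iff]
      intro k hk
      rw [Subgroup.mem_bot]
      apply Subtype.ext
      apply Equiv.ext
      intro x
      have hx : x ∈ MulAction.fixedPoints (MonoidHom.transferSylow P hNC).ker (Fin 11) := by
        rw [hfix]
        trivial
      exact hx ⟨k, hk⟩
    haveI := MulAction.IsQuasiPreprimitive.isPretransitive_of_normal
      (N := (MonoidHom.transferSylow P hNC).ker) hfix
    have h1 := MulAction.index_stabilizer_of_transitive (MonoidHom.transferSylow P hNC).ker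
      (0 : Fin 11)
    have h2 := Subgroup.index_dvd_card
      (MulAction.stabilizer (MonoidHom.transferSylow P hNC).ker (0 : Fin 11))
    rw [h1, Nat.card_eq_fintype_card, Fintype.card_fin] at h2
    exact hKcard h2
  rw [hKtriv] at hcomp
  have hPtop : (P : Subgroup G) = ⊤ := Subgroup.isComplement'_bot_left.mp hcomp
  rw [hPcoe] at hPtop
  apply Group.isSolvable_of_comm
  intro x y
  have hx : x ∈ Subgroup.zpowers (⟨c0, hc⟩ : G) := by rw [hPtop]; trivial
  have hy : y ∈ Subgroup.zpowers (⟨c0, hc⟩ : G) := by rw [hPtop]; trivial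
  obtain ⟨i, rfl⟩ := Subgroup.mem_zpowers_iff.mp hx
  obtain ⟨j, rfl⟩ := Subgroup.mem_zpowers_iff.mp hy
  rw [← zpow_add, ← zpow_add, add_comm]

end Cfsg.Agent.Lib.Helper73.D11
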