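import Mathlib
import Cfsg.Agent.Lib.Helper79.DGMK

/-!
Piece TRANSPORT for S4502 (helper79's DG project): the McKay sum of `P` in `G` equals that of
`P.subgroupOf N` in `N = N_G(P)`.
-/

set_option autoImplicit false

namespace Cfsg.Agent.Lib.Helper73.DG

open Cfsg Cfsg.Agent.Lib.Helper79.DG Cfsg.Agent.Lib.Helper81

section

variable {G : Type*} [Group G] (P : Subgroup G)

/-- The centralizer of `P.subgroupOf N` in `N = N_G(P)` is the centralizer of `P` in `G`. -/
def centEquiv :
    Subgroup.centralizer ((P.subgroupOf (Subgroup.normalizer (P : Set G)) :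
      Subgroup (Subgroup.normalizer (P : Set G))) : Set (Subgroup.normalizer (P : Set G))) ≃*
    Subgroup.centralizer (P : Set G) where
  toFun x := ⟨((x : Subgroup.normalizer (P : Set G)) : G), by
    rw [Subgroup.mem_centralizer_iff]
    intro h hh
    have hx := Subgroup.mem_centralizer_iff.mp x.2 ⟨h, Subgroup.le_normalizer hh⟩ (by
      rw [SetLike.mem_coe, Subgroup.mem_subgroupOf]
      exact hh)
    exact congrArg Subtype.val hx⟩
  invFun c := ⟨⟨(c : G), Subgroup.centralizer_le_normalizer (P : Set G) c.2⟩, by
    rw [Subgroup.mem_centralizer_iff]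
    intro h hh
    rw [SetLike.mem_coe, Subgroup.mem_subgroupOf] at hh
    apply Subtype.ext
    exact Subgroup.mem_centralizer_iff.mp c.2 (h : G) hh⟩
  left_inv x := rfl
  right_inv c := rfl
  map_mul' x y := rfl

theorem centEquiv_coe (x : Subgroup.centralizer ((P.subgroupOf (Subgroup.normalizer (P : Set G)) :
      Subgroup (Subgroup.normalizer (P : Set G))) : Set (Subgroup.normalizer (P : Set G)))) :
    ((centEquiv P x : Subgroup.centralizer (P : Set G)) : G) =
      ((x : Subgroup.normalizer (P : Set G)) : G) := rfl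

theorem centEquiv_symm_coe (c : Subgroup.centralizer (P : Set G)) :
    ((((centEquiv P).symm c : Subgroup.centralizer ((P.subgroupOf (Subgroup.normalizer (P : Set G)) :
      Subgroup (Subgroup.normalizer (P : Set G))) : Set (Subgroup.normalizer (P : Set G)))) :
      Subgroup.normalizer (P : Set G)) : G) = (c : G) := rfl

theorem isCanon_iff (θ' : IrrCharacter (Subgroup.centralizer
      ((P.subgroupOf (Subgroup.normalizer (P : Set G)) :
        Subgroup (Subgroup.normalizer (P : Set G))) : Set (Subgroup.normalizer (P : Set G))))) :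
    IsCanon P (irrMap (centEquiv P) θ') ↔
      IsCanon (P.subgroupOf (Subgroup.normalizer (P : Set G))) θ' := by
  constructor
  · intro h x hx
    rw [Subgroup.mem_subgroupOf] at hx
    have h1 := h (centEquiv P x) hx
    rw [irrMap_apply_apply, irrMap_one] at h1
    exact h1
  · intro h x hx
    rw [irrMap_apply, irrMap_one]
    apply h
    rw [Subgroup.mem_subgroupOf, centEquiv_symm_coe]
    exact hx

theorem normalizer_subgroupOf_eq_top :
    Subgroup.normalizer ((P.subgroupOf (Subgroup.normalizer (P : Set G)) :
      Subgroup (Subgroup.normalizer (P : Set G))) : Set (Subgroup.normalizer (P : Set G))) = ⊤ := by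
  rw [eq_top_iff]
  intro g _
  rw [Subgroup.mem_normalizer_iff]
  intro h
  rw [Subgroup.mem_subgroupOf, Subgroup.mem_subgroupOf]
  exact Subgroup.mem_normalizer_iff.mp g.2 (h : G)

theorem mem_stabSet_iff (θ' : IrrCharacter (Subgroup.centralizer
      ((P.subgroupOf (Subgroup.normalizer (P : Set G)) :
        Subgroup (Subgroup.normalizer (P : Set G))) : Set (Subgroup.normalizer (P : Set G)))))
    (g : Subgroup.normalizer (P : Set G)) :
    g ∈ stabSet (P.subgroupOf (Subgroup.normalizer (P : Set G))) θ' ↔
      (g : G) ∈ stabSet P (irrMap (centEquiv P) θ') := by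
  constructor
  · rintro ⟨_, h2⟩
    refine ⟨g.2, ?_⟩
    intro d d' hdd
    have h3 := h2 ((centEquiv P).symm d) ((centEquiv P).symm d') (by
      apply Subtype.ext
      rw [centEquiv_symm_coe, hdd]
      rfl)
    rw [irrMap_apply, irrMap_apply]
    exact h3
  · rintro ⟨_, h2⟩
    refine ⟨by rw [normalizer_subgroupOf_eq_top]; trivial, ?_⟩
    intro c c' hcc
    have h3 := h2 (centEquiv P c) (centEquiv P c') (by
      rw [centEquiv_coe, hcc]
      rfl)
    rw [irrMap_apply_apply, irrMap_apply_apply] at h3
    exact h3

theorem card_stabSet (θ' : IrrCharacter (Subgroup.centralizer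
      ((P.subgroupOf (Subgroup.normalizer (P : Set G)) :
        Subgroup (Subgroup.normalizer (P : Set G))) : Set (Subgroup.normalizer (P : Set G))))) :
    Nat.card (stabSet P (irrMap (centEquiv P) θ')) =
      Nat.card (stabSet (P.subgroupOf (Subgroup.normalizer (P : Set G))) θ') := by
  have himg : stabSet P (irrMap (centEquiv P) θ') =
      (Subtype.val : Subgroup.normalizer (P : Set G) → G) ''
        stabSet (P.subgroupOf (Subgroup.normalizer (P : Set G))) θ' := by
    ext g
    constructor
    · intro hg
      exact ⟨⟨g, hg.1⟩, (mem_stabSet_iff P θ' ⟨g, hg.1⟩).mpr hg, rfl⟩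
    · rintro ⟨g', hg', rfl⟩
      exact (mem_stabSet_iff P θ' g').mp hg'
  rw [himg, Nat.card_coe_set_eq, Nat.card_coe_set_eq,
    Set.ncard_image_of_injective _ Subtype.val_injective]

theorem mkWeight_eq (p : ℕ) (θ' : IrrCharacter (Subgroup.centralizer
      ((P.subgroupOf (Subgroup.normalizer (P : Set G)) :
        Subgroup (Subgroup.normalizer (P : Set G))) : Set (Subgroup.normalizer (P : Set G))))) :
    mkWeight p P (irrMap (centEquiv P) θ') =
      mkWeight p (P.subgroupOf (Subgroup.normalizer (P : Set G))) θ' := by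
  have h1 := card_stabSet P θ'
  have h2 : Nat.card (Subgroup.centralizer (P : Set G)) =
      Nat.card (Subgroup.centralizer ((P.subgroupOf (Subgroup.normalizer (P : Set G)) :
        Subgroup (Subgroup.normalizer (P : Set G))) : Set (Subgroup.normalizer (P : Set G)))) :=
    (Nat.card_congr (centEquiv P).toEquiv).symm
  have h3 : Nat.card (Subgroup.normalizer ((P.subgroupOf (Subgroup.normalizer (P : Set G)) :
      Subgroup (Subgroup.normalizer (P : Set G))) : Set (Subgroup.normalizer (P : Set G)))) =
      Nat.card (Subgroup.normalizer (P : Set G)) := by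
    rw [normalizer_subgroupOf_eq_top, Subgroup.card_top]
  unfold mkWeight mkE
  rw [h1, h2, h3]

end

/-- PIECE TRANSPORT -/
theorem mkSum_normalizer (p : ℕ) {G : Type*} [Group G] [Finite G] (P : Subgroup G) :
    mkSum p P = mkSum p (P.subgroupOf (Subgroup.normalizer (P : Set G))) := by
  unfold mkSum
  have himg : {θ : IrrCharacter (Subgroup.centralizer (P : Set G)) | IsCanon P θ} =
      irrMap (centEquiv P) '' {θ' | IsCanon (P.subgroupOf (Subgroup.normalizer (P : Set G))) θ'} := by
    ext θ
    constructor
    · intro hθ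
      refine ⟨irrMap (centEquiv P).symm θ, ?_, irrMap_irrMap_symm _ _⟩
      show IsCanon (P.subgroupOf (Subgroup.normalizer (P : Set G)))
        (irrMap (centEquiv P).symm θ)
      rw [← isCanon_iff, irrMap_irrMap_symm]
      exact hθ
    · rintro ⟨θ', hθ', rfl⟩
      exact (isCanon_iff P θ').mpr hθ'
  rw [himg, finsum_mem_image (irrMap_injective (centEquiv P)).injOn]
  exact finsum_mem_congr rfl (fun θ' _ => mkWeight_eq P p θ')

end Cfsg.Agent.Lib.Helper73.DG
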