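import Mathlib

/-!
# Small groups: Klein four-subgroups in `V₄, A₄, S₄, A₅, S₅` (helper73, for S4291)
-/

set_option autoImplicit false

namespace Cfsg.Agent.Lib.Helper73.FC

open Equiv

/-- `a, b` are two distinct commuting involutions. -/
def IsV4pair {X : Type*} [Group X] (a b : X) : Prop :=
  a ≠ b ∧ a ≠ 1 ∧ b ≠ 1 ∧ a * a = 1 ∧ b * b = 1 ∧ a * b = b * a

instance {X : Type*} [Group X] [DecidableEq X] (a b : X) : Decidable (IsV4pair a b) := by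
  unfold IsV4pair; infer_instance

theorem IsV4pair.of_injective {X Z : Type*} [Group X] [Group Z] (f : X →* Z)
    (hf : Function.Injective f) {a b : X} (h : IsV4pair (f a) (f b)) : IsV4pair a b := by
  obtain ⟨h1, h2, h3, h4, h5, h6⟩ := h
  refine ⟨fun h => h1 (by rw [h]), fun h => h2 (by rw [h, map_one]),
    fun h => h3 (by rw [h, map_one]), hf (by rw [map_mul, h4, map_one]),
    hf (by rw [map_mul, h5, map_one]), hf (by rw [map_mul, map_mul, h6])⟩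

theorem IsV4pair.map {X Z : Type*} [Group X] [Group Z] (f : X →* Z)
    (hf : Function.Injective f) {a b : X} (h : IsV4pair a b) : IsV4pair (f a) (f b) := by
  obtain ⟨h1, h2, h3, h4, h5, h6⟩ := h
  refine ⟨fun h => h1 (hf h), fun h => h2 (hf (by rw [h, map_one])),
    fun h => h3 (hf (by rw [h, map_one])), by rw [← map_mul, h4, map_one],
    by rw [← map_mul, h5, map_one], by rw [← map_mul, ← map_mul, h6]⟩

/-- `Y` contains two distinct commuting involutions. -/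
def HasV4In {X : Type*} [Group X] (Y : Subgroup X) : Prop :=
  ∃ a ∈ Y, ∃ b ∈ Y, IsV4pair a b

theorem HasV4In.mono {X : Type*} [Group X] {Y Z : Subgroup X} (h : HasV4In Y) (hYZ : Y ≤ Z) :
    HasV4In Z := by
  obtain ⟨a, ha, b, hb, h1⟩ := h
  exact ⟨a, hYZ ha, b, hYZ hb, h1⟩

/-- every nontrivial normal subgroup contains a four-group, and the group is large -/
def IsBig (X : Type*) [Group X] : Prop :=
  (∀ Y : Subgroup X, Y.Normal → Y ≠ ⊥ → HasV4In Y) ∧ 12 ≤ Nat.card X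

theorem hasV4_dihedral : HasV4In (⊤ : Subgroup (DihedralGroup 2)) :=
  ⟨DihedralGroup.r 1, Subgroup.mem_top _, DihedralGroup.sr 0, Subgroup.mem_top _, by decide⟩

/-- commutators in `A₄` -/
theorem key4 : ∀ σ : Perm (Fin 4), Perm.sign σ = 1 → σ ≠ 1 →
    ∃ τ₁ τ₂ : Perm (Fin 4), Perm.sign τ₁ = 1 ∧ Perm.sign τ₂ = 1 ∧
      IsV4pair (τ₁ * σ * τ₁⁻¹ * σ⁻¹) (τ₂ * σ * τ₂⁻¹ * σ⁻¹) := by
  decide +kernel

theorem key4' : ∀ σ : Perm (Fin 4), σ ≠ 1 → ∃ τ : Perm (Fin 4), τ * σ * τ⁻¹ * σ⁻¹ ≠ 1 := by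
  decide +kernel

theorem key5' : ∀ σ : Perm (Fin 5), σ ≠ 1 → ∃ τ : Perm (Fin 5), τ * σ * τ⁻¹ * σ⁻¹ ≠ 1 := by
  decide +kernel

theorem key5 : IsV4pair (swap (0 : Fin 5) 1 * swap 2 3) (swap (0 : Fin 5) 2 * swap 1 3) ∧
    Perm.sign (swap (0 : Fin 5) 1 * swap 2 3) = 1 ∧
    Perm.sign (swap (0 : Fin 5) 2 * swap 1 3) = 1 := by
  decide +kernel

theorem key5o : ∀ σ : Perm (Fin 5), Perm.sign σ = 1 → σ ^ 4 = 1 → σ ^ 2 = 1 := by
  decide +kernel

theorem sign_comm {n : ℕ} (τ σ : Perm (Fin n)) : Perm.sign (τ * σ * τ⁻¹ * σ⁻¹) = 1 := by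
  rw [map_mul, map_mul, map_mul, map_inv, map_inv]
  rw [mul_comm (Perm.sign τ), mul_inv_cancel_right, mul_inv_cancel]

theorem exists_ne_one_of_ne_bot {X : Type*} [Group X] {Y : Subgroup X} (h : Y ≠ ⊥) :
    ∃ y ∈ Y, y ≠ 1 := by
  by_contra hcon
  push Not at hcon
  exact h ((Subgroup.eq_bot_iff_forall Y).mpr hcon)

theorem big_A4 : IsBig (alternatingGroup (Fin 4)) := by
  refine ⟨?_, ?_⟩
  · intro Y hY hbot
    obtain ⟨σ, hσY, hσ1⟩ := exists_ne_one_of_ne_bot hbot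
    have hs : Perm.sign (σ : Perm (Fin 4)) = 1 := Perm.mem_alternatingGroup.mp σ.2
    have h1 : (σ : Perm (Fin 4)) ≠ 1 := fun h => hσ1 (Subtype.ext h)
    obtain ⟨τ₁, τ₂, h₁, h₂, hv⟩ := key4 σ hs h1
    let t₁ : alternatingGroup (Fin 4) := ⟨τ₁, Perm.mem_alternatingGroup.mpr h₁⟩
    let t₂ : alternatingGroup (Fin 4) := ⟨τ₂, Perm.mem_alternatingGroup.mpr h₂⟩
    refine ⟨t₁ * σ * t₁⁻¹ * σ⁻¹, Y.mul_mem (hY.conj_mem σ hσY t₁) (Y.inv_mem hσY),
      t₂ * σ * t₂⁻¹ * σ⁻¹, Y.mul_mem (hY.conj_mem σ hσY t₂) (Y.inv_mem hσY), ?_⟩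
    exact IsV4pair.of_injective (alternatingGroup (Fin 4)).subtype Subtype.val_injective hv
  · have := two_mul_nat_card_alternatingGroup (α := Fin 4)
    rw [Nat.card_perm, Nat.card_fin] at this
    have h24 : Nat.factorial 4 = 24 := rfl
    omega

theorem big_S4 : IsBig (Perm (Fin 4)) := by
  refine ⟨?_, ?_⟩
  · intro Y hY hbot
    obtain ⟨σ, hσY, hσ1⟩ := exists_ne_one_of_ne_bot hbot
    obtain ⟨τ, hτ⟩ := key4' σ hσ1
    have hmem : τ * σ * τ⁻¹ * σ⁻¹ ∈ Y := Y.mul_mem (hY.conj_mem σ hσY τ) (Y.inv_mem hσY)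
    obtain ⟨τ₁, τ₂, -, -, hv⟩ := key4 _ (sign_comm τ σ) hτ
    exact ⟨_, Y.mul_mem (hY.conj_mem _ hmem τ₁) (Y.inv_mem hmem),
      _, Y.mul_mem (hY.conj_mem _ hmem τ₂) (Y.inv_mem hmem), hv⟩
  · rw [Nat.card_perm, Nat.card_fin]
    decide

theorem big_A5 : IsBig (alternatingGroup (Fin 5)) := by
  refine ⟨?_, ?_⟩
  · intro Y hY hbot
    have htop : Y = ⊤ := (hY.eq_bot_or_eq_top).resolve_left hbot
    rw [htop]
    obtain ⟨hv, h1, h2⟩ := key5
    refine ⟨⟨_, Perm.mem_alternatingGroup.mpr h1⟩, Subgroup.mem_top _,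
      ⟨_, Perm.mem_alternatingGroup.mpr h2⟩, Subgroup.mem_top _, ?_⟩
    exact IsV4pair.of_injective (alternatingGroup (Fin 5)).subtype Subtype.val_injective hv
  · have := two_mul_nat_card_alternatingGroup (α := Fin 5)
    rw [Nat.card_perm, Nat.card_fin] at this
    have h120 : Nat.factorial 5 = 120 := rfl
    omega

theorem big_S5 : IsBig (Perm (Fin 5)) := by
  refine ⟨?_, ?_⟩
  · intro Y hY hbot
    obtain ⟨σ, hσY, hσ1⟩ := exists_ne_one_of_ne_bot hbot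
    obtain ⟨τ, hτ⟩ := key5' σ hσ1
    have hmem : τ * σ * τ⁻¹ * σ⁻¹ ∈ Y := Y.mul_mem (hY.conj_mem σ hσY τ) (Y.inv_mem hσY)
    have hs := sign_comm τ σ
    have hnorm : (Y.subgroupOf (alternatingGroup (Fin 5))).Normal := inferInstance
    have hne : Y.subgroupOf (alternatingGroup (Fin 5)) ≠ ⊥ := by
      intro h
      have h1 : (⟨τ * σ * τ⁻¹ * σ⁻¹, Perm.mem_alternatingGroup.mpr hs⟩ :
          alternatingGroup (Fin 5)) ∈ Y.subgroupOf (alternatingGroup (Fin 5)) := by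
        rw [Subgroup.mem_subgroupOf]; exact hmem
      rw [h, Subgroup.mem_bot] at h1
      exact hτ (congrArg Subtype.val h1)
    have htop := (hnorm.eq_bot_or_eq_top).resolve_left hne
    have hle : alternatingGroup (Fin 5) ≤ Y := Subgroup.subgroupOf_eq_top.mp htop
    obtain ⟨hv, h1, h2⟩ := key5
    exact ⟨_, hle (Perm.mem_alternatingGroup.mpr h1), _, hle (Perm.mem_alternatingGroup.mpr h2), hv⟩
  · rw [Nat.card_perm, Nat.card_fin]
    decide

end Cfsg.Agent.Lib.Helper73.FC
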