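import Mathlib
import Cfsg.Agent.Lib.Helper73.FC1

/-!
# Uniqueness of the Z-core of a Frobenius complement (helper73, for S4291)
-/

set_option autoImplicit false

namespace Cfsg.Agent.Lib.Helper73.FC

open Equiv

/-- a finite `Z`-group has no four-subgroup -/
theorem no_v4_of_zgroup {X : Type*} [Group X] [Finite X] [IsZGroup X] :
    ¬ HasV4In (⊤ : Subgroup X) := by
  classical
  haveI : Fact (Nat.Prime 2) := ⟨Nat.prime_two⟩
  rintro ⟨a, -, b, -, hab, ha1, hb1, ha2, hb2, hc⟩
  have hcomm : ∀ x ∈ ({a, b} : Set X), ∀ y ∈ ({a, b} : Set X), x * y = y * x := by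
    intro x hx y hy
    rcases hx with rfl | hx <;> rcases hy with rfl | hy
    · rfl
    · rw [Set.mem_singleton_iff] at hy; rw [hy, hc]
    · rw [Set.mem_singleton_iff] at hx; rw [hx, hc]
    · rw [Set.mem_singleton_iff] at hx hy; rw [hx, hy]
  haveI hVc := Subgroup.isMulCommutative_closure hcomm
  have hsq : ∀ x ∈ Subgroup.closure ({a, b} : Set X), x * x = 1 := by
    intro x hx
    induction hx using Subgroup.closure_induction with
    | mem x hx =>
      rcases hx with rfl | hx
      · exact ha2
      · rw [Set.mem_singleton_iff] at hx; rw [hx, hb2]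
    | one => exact mul_one 1
    | mul x y hx hy ihx ihy =>
      have h1 : (⟨x, hx⟩ : Subgroup.closure ({a, b} : Set X)) * ⟨y, hy⟩ = ⟨y, hy⟩ * ⟨x, hx⟩ :=
        hVc.is_comm.comm _ _
      have h2 : x * y = y * x := congrArg Subtype.val h1
      calc x * y * (x * y) = x * (y * x) * y := by group
        _ = x * (x * y) * y := by rw [h2]
        _ = (x * x) * (y * y) := by group
        _ = 1 := by rw [ihx, ihy, mul_one]
    | inv x hx ih =>
      calc x⁻¹ * x⁻¹ = (x * x)⁻¹ := by group
        _ = 1 := by rw [ih, inv_one]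
  have hV : IsPGroup 2 (Subgroup.closure ({a, b} : Set X)) := by
    intro g
    refine ⟨1, Subtype.ext ?_⟩
    have := hsq g g.2
    simpa [pow_two] using this
  haveI hcyc : IsCyclic (Subgroup.closure ({a, b} : Set X)) := hV.isCyclic_of_isZGroup
  letI : Fintype (Subgroup.closure ({a, b} : Set X)) := Fintype.ofFinite _
  have hle := IsCyclic.card_pow_eq_one_le (α := Subgroup.closure ({a, b} : Set X)) (n := 2)
    (by norm_num)
  have haV : a ∈ Subgroup.closure ({a, b} : Set X) := Subgroup.subset_closure (by simp)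
  have hbV : b ∈ Subgroup.closure ({a, b} : Set X) := Subgroup.subset_closure (by simp)
  have hsub : ({1, ⟨a, haV⟩, ⟨b, hbV⟩} : Finset (Subgroup.closure ({a, b} : Set X))) ⊆
      Finset.univ.filter (fun x => x ^ 2 = 1) := by
    intro x hx
    rw [Finset.mem_filter]
    refine ⟨Finset.mem_univ _, ?_⟩
    rw [Finset.mem_insert, Finset.mem_insert, Finset.mem_singleton] at hx
    rcases hx with rfl | rfl | rfl
    · exact one_pow 2
    · exact Subtype.ext (by simpa [pow_two] using ha2)
    · exact Subtype.ext (by simpa [pow_two] using hb2)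
  have h3 : ({1, ⟨a, haV⟩, ⟨b, hbV⟩} : Finset (Subgroup.closure ({a, b} : Set X))).card = 3 := by
    rw [Finset.card_insert_of_notMem, Finset.card_insert_of_notMem, Finset.card_singleton]
    · rw [Finset.mem_singleton]
      intro h
      exact hab (congrArg Subtype.val h)
    · rw [Finset.mem_insert, Finset.mem_singleton]
      rintro (h | h)
      · exact ha1 (congrArg Subtype.val h).symm
      · exact hb1 (congrArg Subtype.val h).symm
  have := Finset.card_le_card hsub
  omega

/-- the image of a `Z`-subgroup contains no four-group -/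
theorem zgroup_no_v4 {G X : Type*} [Group G] [Finite G] [Group X] (N : Subgroup G) [IsZGroup N]
    (π : G →* X) : ¬ HasV4In (N.map π) := by
  haveI : Finite (N.map π) := Finite.of_surjective _ (π.subgroupMap_surjective N)
  haveI : IsZGroup (N.map π) := IsZGroup.of_surjective (π.subgroupMap_surjective N)
  rintro ⟨a, ha, b, hb, hv⟩
  apply no_v4_of_zgroup (X := N.map π)
  exact ⟨⟨a, ha⟩, Subgroup.mem_top _, ⟨b, hb⟩, Subgroup.mem_top _,
    IsV4pair.of_injective (N.map π).subtype Subtype.val_injective hv⟩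

/-- the quotient is `V₄` -/
def IsSmallQ {G : Type*} [Group G] (N : Subgroup G) : Prop :=
  ∃ f : G →* DihedralGroup 2, Function.Surjective f ∧ f.ker = N

/-- the quotient is "big" -/
def IsBigQ {G : Type*} [Group G] (N : Subgroup G) : Prop :=
  ∃ (X : Type) (_ : Group X) (f : G →* X), Function.Surjective f ∧ f.ker = N ∧ IsBig X

theorem IsBig.hasV4 {X : Type*} [Group X] [Finite X] (h : IsBig X) :
    HasV4In (⊤ : Subgroup X) := by
  apply h.1 ⊤ inferInstance
  intro h0
  have h1 : Nat.card (⊤ : Subgroup X) = 1 := by rw [h0]; exact Subgroup.card_bot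
  rw [Subgroup.card_top] at h1
  have := h.2
  omega

theorem top_vs {G X : Type*} [Group G] [Finite G] [Group X] (N : Subgroup G) [IsZGroup N]
    (hN : N = ⊤) (f : G →* X) (hf : Function.Surjective f) (hV : HasV4In (⊤ : Subgroup X)) :
    False := by
  apply zgroup_no_v4 N f
  rw [hN, ← MonoidHom.range_eq_map, MonoidHom.range_eq_top.mpr hf]
  exact hV

theorem big_le {G X : Type*} [Group G] [Finite G] [Group X] (f : G →* X)
    (hf : Function.Surjective f) (hX : IsBig X) (N' : Subgroup G) [N'.Normal] [IsZGroup N'] :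
    N' ≤ f.ker := by
  have hn : (N'.map f).Normal := Subgroup.Normal.map inferInstance f hf
  by_contra hcon
  apply zgroup_no_v4 N' f
  apply hX.1 _ hn
  intro h
  exact hcon ((Subgroup.map_eq_bot_iff N').mp h)

theorem index_small {G : Type*} [Group G] (f : G →* DihedralGroup 2)
    (hf : Function.Surjective f) : f.ker.index = 4 := by
  rw [Subgroup.index_ker, MonoidHom.range_eq_top.mpr hf, Subgroup.card_top, DihedralGroup.nat_card]

theorem D2_comm : ∀ x y : DihedralGroup 2 × DihedralGroup 2, x * y = y * x := by decide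

theorem D2_sq : ∀ x : DihedralGroup 2 × DihedralGroup 2, x ^ 2 = 1 := by decide

theorem D2_pow (u : DihedralGroup 2 × DihedralGroup 2) (k : ℕ) : u ^ k = 1 ∨ u ^ k = u := by
  rw [pow_eq_pow_mod k (D2_sq u)]
  rcases Nat.mod_two_eq_zero_or_one k with h | h
  · left; rw [h, pow_zero]
  · right; rw [h, pow_one]

/-- the image of a cyclic or quaternion group in `V₄ × V₄` is small -/
theorem image_small {T : Type*} [Group T] [Finite T]
    (hT : IsCyclic T ∨ ∃ n : ℕ, Nonempty (T ≃* QuaternionGroup (2 ^ n)))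
    (h : T →* DihedralGroup 2 × DihedralGroup 2) :
    ∃ u v : DihedralGroup 2 × DihedralGroup 2, ∀ t : T, h t ∈ ({1, u, v, u * v} : Finset _) := by
  classical
  rcases hT with hc | ⟨n, ⟨e⟩⟩
  · obtain ⟨t₀, ht₀⟩ := IsCyclic.exists_monoid_generator (α := T)
    refine ⟨h t₀, 1, fun t => ?_⟩
    obtain ⟨k, rfl⟩ := ht₀ t
    rw [map_pow]
    rcases D2_pow (h t₀) k with h1 | h1 <;> rw [h1] <;> simp
  · haveI : NeZero (2 ^ n) := ⟨by positivity⟩
    haveI : NeZero (2 * 2 ^ n) := ⟨by positivity⟩
    refine ⟨h (e.symm (QuaternionGroup.a 1)), h (e.symm (QuaternionGroup.xa 0)), fun t => ?_⟩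
    obtain ⟨q, rfl⟩ := e.symm.surjective t
    cases q with
    | a i =>
      have h1 : (QuaternionGroup.a i : QuaternionGroup (2 ^ n)) = QuaternionGroup.a 1 ^ i.val := by
        rw [QuaternionGroup.a_one_pow, ZMod.natCast_zmod_val]
      rw [h1, map_pow, map_pow]
      rcases D2_pow (h (e.symm (QuaternionGroup.a 1))) i.val with h2 | h2 <;> rw [h2] <;> simp
    | xa i =>
      have h1 : (QuaternionGroup.xa i : QuaternionGroup (2 ^ n)) =
          QuaternionGroup.xa 0 * QuaternionGroup.a 1 ^ i.val := by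
        rw [QuaternionGroup.a_one_pow, ZMod.natCast_zmod_val, QuaternionGroup.xa_mul_a, zero_add]
      rw [h1, map_mul, map_mul, map_pow, map_pow]
      rcases D2_pow (h (e.symm (QuaternionGroup.a 1))) i.val with h2 | h2
      · rw [h2, mul_one]; simp
      · rw [h2, D2_comm (h (e.symm (QuaternionGroup.xa 0)))]; simp

theorem small_small {G : Type*} [Group G] [Finite G] (T : Sylow 2 G)
    (hT : IsCyclic T ∨ ∃ n : ℕ, Nonempty (T ≃* QuaternionGroup (2 ^ n)))
    (f f' : G →* DihedralGroup 2) (hf : Function.Surjective f) (hf' : Function.Surjective f') :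
    f.ker ≤ f'.ker := by
  classical
  haveI : Fact (Nat.Prime 2) := ⟨Nat.prime_two⟩
  obtain ⟨g, hg⟩ : ∃ g : G →* DihedralGroup 2 × DihedralGroup 2, g = f.prod f' := ⟨_, rfl⟩
  have hker : g.ker = f.ker ⊓ f'.ker := by rw [hg, MonoidHom.ker_prod]
  obtain ⟨u, v, huv⟩ := image_small hT (g.comp (T : Subgroup G).subtype)
  -- T ⊔ ker g = ⊤
  have hidx : g.ker.index ∣ 16 := by
    rw [Subgroup.index_ker]
    have h1 := Subgroup.card_subgroup_dvd_card g.range
    have h2 : Nat.card (DihedralGroup 2 × DihedralGroup 2) = 16 := by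
      rw [Nat.card_prod, DihedralGroup.nat_card]
    rwa [h2] at h1
  have htop : (T : Subgroup G) ⊔ g.ker = ⊤ := by
    rw [← Subgroup.index_eq_one]
    have h1 : ((T : Subgroup G) ⊔ g.ker).index ∣ (T : Subgroup G).index :=
      Subgroup.index_dvd_of_le le_sup_left
    have h2 : ((T : Subgroup G) ⊔ g.ker).index ∣ 16 :=
      (Subgroup.index_dvd_of_le le_sup_right).trans hidx
    have h3 : ¬ 2 ∣ (T : Subgroup G).index := T.not_dvd_index
    have h4 : Nat.Coprime ((T : Subgroup G) ⊔ g.ker).index (2 ^ 4) := by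
      apply Nat.Coprime.pow_right
      rw [Nat.coprime_comm, Nat.Prime.coprime_iff_not_dvd Nat.prime_two]
      exact fun h => h3 (h.trans h1)
    exact Nat.eq_one_of_dvd_coprimes h4 dvd_rfl (by norm_num; exact h2)
  have hrange : g.range = (T : Subgroup G).map g := by
    rw [MonoidHom.range_eq_map, ← htop, Subgroup.map_sup, (Subgroup.map_eq_bot_iff _).mpr le_rfl,
      sup_bot_eq]
  have hcard : Nat.card g.range ≤ 4 := by
    rw [hrange]
    have hsub : (((T : Subgroup G).map g : Subgroup _) : Set (DihedralGroup 2 × DihedralGroup 2)) ⊆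
        (({1, u, v, u * v} : Finset _) : Set (DihedralGroup 2 × DihedralGroup 2)) := by
      rintro _ ⟨t, ht, rfl⟩
      exact huv ⟨t, ht⟩
    calc Nat.card ((T : Subgroup G).map g)
        = Set.ncard (((T : Subgroup G).map g : Subgroup _) :
            Set (DihedralGroup 2 × DihedralGroup 2)) := rfl
      _ ≤ Set.ncard ((({1, u, v, u * v} : Finset _) :
            Set (DihedralGroup 2 × DihedralGroup 2))) :=
          Set.ncard_le_ncard hsub (Finset.finite_toSet _)
      _ = ({1, u, v, u * v} : Finset (DihedralGroup 2 × DihedralGroup 2)).card :=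
          Set.ncard_coe_finset _
      _ ≤ 4 := Finset.card_le_four
  have h4 : f.ker.index = 4 := index_small f hf
  have hle : g.ker ≤ f.ker := by rw [hker]; exact inf_le_left
  have h5 : g.ker.index ≤ 4 := by rw [Subgroup.index_ker]; exact hcard
  have h6 := Subgroup.relIndex_mul_index hle
  have h0 : g.ker.index ≠ 0 := Subgroup.index_ne_zero_of_finite
  have h7 : g.ker.relIndex f.ker = 1 := by
    rw [h4] at h6
    omega
  have h8 : f.ker ≤ g.ker := Subgroup.relIndex_eq_one.mp h7
  exact h8.trans (by rw [hker]; exact inf_le_right)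

/-- the alternatives of the statement, abstractly -/
def Alt {G : Type*} [Group G] (N : Subgroup G) : Prop := N = ⊤ ∨ IsSmallQ N ∨ IsBigQ N

theorem small_big {G X : Type*} [Group G] [Finite G] [Group X]
    (f : G →* DihedralGroup 2) (hf : Function.Surjective f) [IsZGroup f.ker]
    (f' : G →* X) (hf' : Function.Surjective f') (hX : IsBig X) : False := by
  have h1 : f.ker ≤ f'.ker := big_le f' hf' hX f.ker
  have h2 := Subgroup.index_dvd_of_le h1
  rw [index_small f hf, Subgroup.index_ker, MonoidHom.range_eq_top.mpr hf', Subgroup.card_top] at h2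
  have h3 := Nat.le_of_dvd (by norm_num) h2
  have := hX.2
  omega

theorem uniq {G : Type*} [Group G] [Finite G] (T : Sylow 2 G)
    (hT : IsCyclic T ∨ ∃ n : ℕ, Nonempty (T ≃* QuaternionGroup (2 ^ n)))
    (N N' : Subgroup G) [N.Normal] [N'.Normal] [IsZGroup N] [IsZGroup N']
    (hN : Alt N) (hN' : Alt N') : N = N' := by
  rcases hN with h | ⟨f, hf, rfl⟩ | ⟨X, _, f, hf, rfl, hX⟩ <;>
    rcases hN' with h' | ⟨f', hf', rfl⟩ | ⟨X', _, f', hf', rfl, hX'⟩
  · rw [h, h']
  · exact (top_vs N h f' hf' hasV4_dihedral).elim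
  · haveI : Finite X' := Finite.of_surjective _ hf'
    exact (top_vs N h f' hf' hX'.hasV4).elim
  · exact (top_vs N' h' f hf hasV4_dihedral).elim
  · exact le_antisymm (small_small T hT f f' hf hf') (small_small T hT f' f hf' hf)
  · exact (small_big f hf f' hf' hX').elim
  · haveI : Finite X := Finite.of_surjective _ hf
    exact (top_vs N' h' f hf hX.hasV4).elim
  · exact (small_big f' hf' f hf hX).elim
  · exact le_antisymm (big_le f' hf' hX' f.ker) (big_le f hf hX f'.ker)

end Cfsg.Agent.Lib.Helper73.FC
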