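import Mathlib
import Cfsg.Agent.Lib.Helper73.FC1

/-!
# Recognition of `S₅` (helper73, for S4291)
-/

set_option autoImplicit false

namespace Cfsg.Agent.Lib.Helper73.FC

open Equiv

/-- a simple group of order 60 has five Sylow 2-subgroups -/
theorem sylow2_sixty {A : Type*} [Group A] [Finite A] [IsSimpleGroup A] (hA : Nat.card A = 60)
    (P : Sylow 2 A) : (Subgroup.normalizer ((P : Subgroup A) : Set A)).index = 5 := by
  classical
  haveI : Fact (Nat.Prime 2) := ⟨Nat.prime_two⟩
  have hPcard : Nat.card (P : Subgroup A) = 4 ∧ (P : Subgroup A).index = 15 := by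
    have h1 := Subgroup.card_mul_index (P : Subgroup A)
    rw [hA] at h1
    obtain ⟨k, hk⟩ := IsPGroup.iff_card.mp P.2
    have h3 : ¬ 2 ∣ (P : Subgroup A).index := P.not_dvd_index
    rw [hk] at h1 ⊢
    have hk6 : k < 6 := by
      by_contra hcon
      push Not at hcon
      have h4 : 2 ^ 6 ≤ 2 ^ k := Nat.pow_le_pow_right (by norm_num) hcon
      have h5 : 0 < (P : Subgroup A).index := Nat.pos_of_ne_zero Subgroup.index_ne_zero_of_finite
      nlinarith
    interval_cases k <;> omega
  obtain ⟨hP4, hP15⟩ := hPcard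
  have hn := P.card_eq_index_normalizer
  have hdvd : Nat.card (Sylow 2 A) ∣ 15 := hP15 ▸ P.card_dvd_index
  rw [hn] at hdvd
  have hle : (P : Subgroup A) ≤ Subgroup.normalizer ((P : Subgroup A) : Set A) :=
    Subgroup.le_normalizer
  have hcases : (Subgroup.normalizer ((P : Subgroup A) : Set A)).index = 1 ∨
      (Subgroup.normalizer ((P : Subgroup A) : Set A)).index = 3 ∨
      (Subgroup.normalizer ((P : Subgroup A) : Set A)).index = 5 ∨
      (Subgroup.normalizer ((P : Subgroup A) : Set A)).index = 15 := by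
    have h1 : (Subgroup.normalizer ((P : Subgroup A) : Set A)).index ≤ 15 :=
      Nat.le_of_dvd (by norm_num) hdvd
    interval_cases (Subgroup.normalizer ((P : Subgroup A) : Set A)).index <;> simp_all
  rcases hcases with h | h | h | h
  · exfalso
    have h1 : (P : Subgroup A).Normal :=
      Subgroup.normalizer_eq_top_iff.mp (Subgroup.index_eq_one.mp h)
    rcases h1.eq_bot_or_eq_top with h2 | h2
    · rw [h2, Subgroup.card_bot] at hP4; omega
    · rw [h2, Subgroup.card_top, hA] at hP4; omega
  · exfalso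
    obtain ⟨Hn, hHn⟩ : ∃ Hn : Subgroup A, Hn = Subgroup.normalizer ((P : Subgroup A) : Set A) :=
      ⟨_, rfl⟩
    rw [← hHn] at h
    have hk : (MulAction.toPermHom A (A ⧸ Hn)).ker = ⊥ := by
      rcases (MonoidHom.normal_ker (MulAction.toPermHom A (A ⧸ Hn))).eq_bot_or_eq_top with h2 | h2
      · exact h2
      · exfalso
        rw [← Subgroup.normalCore_eq_ker] at h2
        have h3 : Hn = ⊤ := top_le_iff.mp (h2 ▸ Subgroup.normalCore_le Hn)
        rw [h3, Subgroup.index_top] at h
        omega
    have hinj : Function.Injective (MulAction.toPermHom A (A ⧸ Hn)) :=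
      (MonoidHom.ker_eq_bot_iff _).mp hk
    have h4 := Nat.card_le_card_of_injective _ hinj
    rw [hA, Nat.card_perm, ← Subgroup.index_eq_card, h] at h4
    have : Nat.factorial 3 = 6 := rfl
    omega
  · exact h
  · exfalso
    have heq : Subgroup.normalizer ((P : Subgroup A) : Set A) = (P : Subgroup A) := by
      symm
      apply Subgroup.eq_of_le_of_card_ge hle
      have h1 := Subgroup.card_mul_index (Subgroup.normalizer ((P : Subgroup A) : Set A))
      rw [h, hA] at h1
      omega
    have hcomm := (IsPGroup.isMulCommutative_of_card_eq_prime_sq (p := 2) (G := (P : Subgroup A))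
      (by rw [hP4]; norm_num)).is_comm.comm
    have hP : Subgroup.normalizer ((P : Subgroup A) : Set A) ≤
        Subgroup.centralizer ((P : Subgroup A) : Set A) := by
      rw [heq]
      intro x hx
      rw [Subgroup.mem_centralizer_iff]
      intro y hy
      exact congrArg Subtype.val (hcomm ⟨y, hy⟩ ⟨x, hx⟩)
    have hc := MonoidHom.ker_transferSylow_isComplement' P hP
    have h1 := hc.card_mul_card
    rw [hP4, hA] at h1
    rcases (MonoidHom.normal_ker (MonoidHom.transferSylow P hP)).eq_bot_or_eq_top with h2 | h2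
    · rw [h2, Subgroup.card_bot] at h1; omega
    · rw [h2, Subgroup.card_top, hA] at h1; omega

/-- recognition of `S₅` -/
theorem perm5_of_card_120 {X : Type*} [Group X] [Finite X] (A : Subgroup X) [hAn : A.Normal]
    (eA : A ≃* alternatingGroup (Fin 5)) (hX : Nat.card X = 120)
    (h4 : ∃ x : X, x ^ 4 = 1 ∧ x ^ 2 ≠ 1) : Nonempty (X ≃* Perm (Fin 5)) := by
  classical
  haveI : Fact (Nat.Prime 2) := ⟨Nat.prime_two⟩
  have hA60 : Nat.card A = 60 := by
    rw [Nat.card_congr eA.toEquiv]
    have := two_mul_nat_card_alternatingGroup (α := Fin 5)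
    rw [Nat.card_perm, Nat.card_fin] at this
    have h120 : Nat.factorial 5 = 120 := rfl
    omega
  haveI : Nontrivial A := by
    rw [← Finite.one_lt_card_iff_nontrivial, hA60]; norm_num
  haveI hAs : IsSimpleGroup A :=
    IsSimpleGroup.isSimpleGroup_of_surjective eA.symm.toMonoidHom eA.symm.surjective
  have hAidx : A.index = 2 := by
    have := Subgroup.card_mul_index A
    rw [hA60, hX] at this
    omega
  have hA4 : ∀ a ∈ A, a ^ 4 = 1 → a ^ 2 = 1 := by
    intro a ha h
    have h1 : ((eA ⟨a, ha⟩ : alternatingGroup (Fin 5)) : Perm (Fin 5)) ^ 4 = 1 := by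
      have h0 : (⟨a, ha⟩ : A) ^ 4 = 1 := Subtype.ext h
      have h0' : (eA ⟨a, ha⟩) ^ 4 = 1 := by rw [← map_pow, h0, map_one]
      have := congrArg Subtype.val h0'
      simpa using this
    have h2 := key5o _ (Perm.mem_alternatingGroup.mp (eA ⟨a, ha⟩).2) h1
    have h3 : (eA ⟨a, ha⟩) ^ 2 = 1 := Subtype.ext (by simpa using h2)
    have h4 : (⟨a, ha⟩ : A) ^ 2 = 1 := eA.injective (by rw [map_pow, h3, map_one])
    exact congrArg Subtype.val h4
  obtain ⟨P⟩ : Nonempty (Sylow 2 A) := inferInstance
  obtain ⟨H, hH⟩ : ∃ H : Subgroup X, H =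
      Subgroup.normalizer (((P : Subgroup A).map A.subtype : Subgroup X) : Set X) := ⟨_, rfl⟩
  have hsup : H ⊔ A = ⊤ := hH ▸ Sylow.normalizer_sup_eq_top P
  have hrel1 : H.relIndex A = 5 := by
    rw [Subgroup.relIndex, hH, Subgroup.subgroupOf_normalizer_eq (Subgroup.map_subtype_le _)]
    have h2 : ((P : Subgroup A).map A.subtype).subgroupOf A = (P : Subgroup A) :=
      Subgroup.comap_map_eq_self_of_injective A.subtype_injective _
    rw [h2]
    exact sylow2_sixty hA60 P
  have hrel2 : A.relIndex H = 2 := by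
    rw [← Subgroup.relIndex_sup_right, hsup, Subgroup.relIndex_top_right, hAidx]
  have hinf : Nat.card (H ⊓ A : Subgroup X) = 12 := by
    have h1 := Subgroup.relIndex_mul_relIndex ⊥ (H ⊓ A) A bot_le inf_le_right
    rw [Subgroup.relIndex_bot_left, Subgroup.relIndex_bot_left, Subgroup.inf_relIndex_right, hrel1,
      hA60] at h1
    omega
  have hHcard : Nat.card H = 24 := by
    have h1 := Subgroup.relIndex_mul_relIndex ⊥ (H ⊓ A) H bot_le inf_le_left
    rw [Subgroup.relIndex_bot_left, Subgroup.relIndex_bot_left, inf_comm,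
      Subgroup.inf_relIndex_right, hrel2, inf_comm, hinf] at h1
    omega
  have hHidx : H.index = 5 := by
    have := Subgroup.card_mul_index H
    rw [hHcard, hX] at this
    omega
  obtain ⟨K, hK⟩ : ∃ K : Subgroup X, K = H.normalCore := ⟨_, rfl⟩
  have hKn : K.Normal := hK ▸ Subgroup.normalCore_normal H
  have hKH : K ≤ H := hK ▸ Subgroup.normalCore_le H
  have hKA : Disjoint K A := by
    haveI := hKn
    have hn : (K.subgroupOf A).Normal := inferInstance
    rcases hn.eq_bot_or_eq_top with h | h
    · exact Subgroup.subgroupOf_eq_bot.mp h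
    · exfalso
      have h1 : A ≤ K := Subgroup.subgroupOf_eq_top.mp h
      have h2 := Subgroup.card_dvd_of_le (h1.trans hKH)
      rw [hA60, hHcard] at h2
      omega
  have hKcard : Nat.card K ∣ 2 := by
    have h1 : A.relIndex K ∣ A.index := Subgroup.relIndex_dvd_index_of_normal A K
    rw [hAidx] at h1
    have h2 : A.relIndex K = Nat.card K := by
      rw [← Subgroup.inf_relIndex_right, inf_comm, hKA.eq_bot, Subgroup.relIndex_bot_left]
    rwa [h2] at h1
  have hKbot : K = ⊥ := by
    by_contra hne
    have h2 : Nat.card K = 2 := by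
      have h1 := Nat.le_of_dvd (by norm_num) hKcard
      have h3 : Nat.card K ≠ 1 := fun h => hne (Subgroup.card_eq_one.mp h)
      have : 0 < Nat.card K := Nat.card_pos
      omega
    obtain ⟨k, hk1, hku⟩ := (Nat.card_eq_two_iff' (1 : K)).mp h2
    have hkA : (k : X) ∉ A := fun h => hk1 (Subtype.ext (by
      have h' : (k : X) ∈ K ⊓ A := ⟨k.2, h⟩
      rw [hKA.eq_bot] at h'
      exact Subgroup.mem_bot.mp h'))
    have hkc : ∀ g : X, g * (k : X) = (k : X) * g := by
      intro g
      have h1 : g * (k : X) * g⁻¹ ∈ K := hKn.conj_mem k k.2 g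
      have h3 : (⟨g * (k : X) * g⁻¹, h1⟩ : K) = k := by
        apply hku
        intro h
        apply hk1
        have h' : g * (k : X) * g⁻¹ = 1 := congrArg Subtype.val h
        have : (k : X) = 1 := by
          calc (k : X) = g⁻¹ * (g * (k : X) * g⁻¹) * g := by group
            _ = 1 := by rw [h']; group
        exact Subtype.ext this
      have h4 : g * (k : X) * g⁻¹ = (k : X) := congrArg Subtype.val h3
      calc g * (k : X) = (g * (k : X) * g⁻¹) * g := by group
        _ = (k : X) * g := by rw [h4]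
    have hk2 : (k : X) ^ 2 = 1 := by
      have := pow_card_eq_one' (G := K) (x := k)
      rw [h2] at this
      have := congrArg Subtype.val this
      simpa using this
    obtain ⟨x, hx4, hx2⟩ := h4
    by_cases hxA : x ∈ A
    · exact hx2 (hA4 x hxA hx4)
    · have hxk : x * (k : X) ∈ A :=
        (Subgroup.mul_mem_iff_of_index_two hAidx).mpr (iff_of_false hxA hkA)
      have hcomm : Commute x (k : X) := hkc x
      have h5 : (x * (k : X)) ^ 4 = 1 := by
        rw [hcomm.mul_pow, hx4, one_mul]
        calc (k : X) ^ 4 = ((k : X) ^ 2) ^ 2 := by rw [← pow_mul]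
          _ = 1 := by rw [hk2, one_pow]
      have h6 := hA4 _ hxk h5
      rw [hcomm.mul_pow, hk2, mul_one] at h6
      exact hx2 h6
  have hker : (MulAction.toPermHom X (X ⧸ H)).ker = ⊥ := by
    rw [← Subgroup.normalCore_eq_ker, ← hK, hKbot]
  have hinj : Function.Injective (MulAction.toPermHom X (X ⧸ H)) :=
    (MonoidHom.ker_eq_bot_iff _).mp hker
  have hc5 : Nat.card (X ⧸ H) = 5 := by rw [← Subgroup.index_eq_card]; exact hHidx
  let ε : X ⧸ H ≃ Fin 5 := Finite.equivFinOfCardEq hc5
  let ρ : X →* Perm (Fin 5) :=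
    (ε.permCongrHom).toMonoidHom.comp (MulAction.toPermHom X (X ⧸ H))
  have hρ : Function.Injective ρ := (ε.permCongrHom).injective.comp hinj
  have hcard : Nat.card (Perm (Fin 5)) ≤ Nat.card X := by
    rw [hX, Nat.card_perm, Nat.card_fin]
    decide
  exact ⟨MulEquiv.ofBijective ρ (hρ.bijective_of_nat_card_le hcard)⟩

end Cfsg.Agent.Lib.Helper73.FC
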