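import Mathlib
import Cfsg.Agent.Lib.Helper73.FC4
import Cfsg.Agent.Lib.Helper63.FrobComp
import Cfsg.Agent.Lib.Helper6.Ord60
import Cfsg.Agent.S3378

/-!
# The nonsolvable case of the structure of Frobenius complements (helper73, for S4291)
-/

set_option autoImplicit false

namespace Cfsg.Agent.Lib.Helper73.FC

open Equiv

theorem card_sup_of_commute {G : Type*} [Group G] [Finite G] (A B : Subgroup G)
    (hcomm : ∀ a ∈ A, ∀ b ∈ B, a * b = b * a) (hd : Disjoint A B) :
    Nat.card (A ⊔ B : Subgroup G) = Nat.card A * Nat.card B ∧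
      ∀ g ∈ A ⊔ B, ∃ a ∈ A, ∃ b ∈ B, g = a * b := by
  obtain ⟨ψ, hψ⟩ : ∃ ψ : A × B →* G, ψ =
    MonoidHom.noncommCoprod A.subtype B.subtype
      (fun a b => (show Commute (A.subtype a) (B.subtype b) from hcomm a a.2 b b.2)) := ⟨_, rfl⟩
  have hinj : Function.Injective ψ := by
    rw [hψ, MonoidHom.noncommCoprod_injective]
    refine ⟨A.subtype_injective, B.subtype_injective, ?_⟩
    rw [Subgroup.range_subtype, Subgroup.range_subtype]; exact hd
  have hrange : ψ.range = A ⊔ B := by
    rw [hψ, MonoidHom.noncommCoprod_range, Subgroup.range_subtype, Subgroup.range_subtype]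
  constructor
  · rw [← hrange, ← Nat.card_prod]
    exact (Nat.card_congr (MonoidHom.ofInjective hinj).toEquiv).symm
  · intro g hg
    rw [← hrange] at hg
    obtain ⟨⟨a, b⟩, rfl⟩ := hg
    exact ⟨a, a.2, b, b.2, by rw [hψ]; rfl⟩

theorem ker_equiv_comp {G X Y : Type*} [Group G] [Group X] [Group Y] (E : X ≃* Y) (π : G →* X) :
    (E.toMonoidHom.comp π).ker = π.ker := by
  ext x
  simp [MonoidHom.mem_ker]

theorem isCyclic_of_card_le_two {Γ : Type*} [Group Γ] [Finite Γ] (h : Nat.card Γ ≤ 2) :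
    IsCyclic Γ := by
  have hpos : 0 < Nat.card Γ := Nat.card_pos
  rcases Nat.lt_or_ge (Nat.card Γ) 2 with h' | h'
  · have h1 : Nat.card Γ = 1 := by omega
    haveI : Subsingleton Γ := (Nat.card_eq_one_iff_unique.mp h1).1
    infer_instance
  · haveI : Fact (Nat.Prime 2) := ⟨Nat.prime_two⟩
    exact isCyclic_of_prime_card (p := 2) (by omega)

theorem nonsol_exists {G : Type*} [Group G] [Finite G]
    (hinv : ∀ s t : G, orderOf s = 2 → orderOf t = 2 → s = t)
    (hodd : ∀ (p : ℕ) [Fact p.Prime], p ≠ 2 → ∀ Y : Subgroup G, IsPGroup p Y → IsCyclic Y)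
    (h2 : ∀ Y : Subgroup G, IsPGroup 2 Y →
      IsCyclic Y ∨ ∃ n : ℕ, Nonempty (Y ≃* QuaternionGroup (2 ^ n)))
    (G₀ : Subgroup G) (hG₀n : G₀.Normal) (hidx : G₀.index = 1 ∨ G₀.index = 2)
    (S M : Subgroup G) (hsup : S ⊔ M = G₀) (hSM : S ⊓ M = ⊥)
    (hcomm : ∀ s ∈ S, ∀ x ∈ M, s * x = x * s)
    (φ : S ≃* Matrix.SpecialLinearGroup (Fin 2) (ZMod 5)) (hMc : (Nat.card M).Coprime 30) :
    ∃ N : Subgroup G, N.Normal ∧ IsZGroup N ∧
      ((∃ f : G →* alternatingGroup (Fin 5), Function.Surjective f ∧ f.ker = N) ∨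
       (∃ f : G →* Equiv.Perm (Fin 5), Function.Surjective f ∧ f.ker = N)) := by
  classical
  haveI : Fact (Nat.Prime 2) := ⟨Nat.prime_two⟩
  haveI := hG₀n
  have hS120 : Nat.card S = 120 := by
    rw [Nat.card_congr φ.toEquiv]; exact Cfsg.Agent.Lib.Helper63.FrobComp.card_SL25
  obtain ⟨m, hm⟩ : ∃ m, m = Nat.card M := ⟨_, rfl⟩
  have hm30 : m.Coprime 30 := hm ▸ hMc
  have hm2 : m.Coprime 2 := hm30.coprime_dvd_right (by norm_num)
  have hm3 : m.Coprime 3 := hm30.coprime_dvd_right (by norm_num)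
  have hm5 : m.Coprime 5 := hm30.coprime_dvd_right (by norm_num)
  have hm120 : m.Coprime 120 := ((hm2.pow_right 3).mul_right hm3).mul_right hm5
  have hmodd : ¬ 2 ∣ m := by
    intro h
    have := Nat.Coprime.eq_one_of_dvd hm2.symm h
    omega
  have hmpos : 0 < m := hm ▸ Nat.card_pos
  -- the involution
  obtain ⟨z, hzS, hz1, hzz⟩ : ∃ z ∈ S, z ≠ 1 ∧ z * z = 1 := by
    refine ⟨((φ.symm Cfsg.Agent.S3378.gz : S) : G), (φ.symm _).2, ?_, ?_⟩
    · intro h
      have h1 : φ.symm Cfsg.Agent.S3378.gz = 1 := Subtype.ext h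
      have h2 := congrArg φ h1
      rw [φ.apply_symm_apply, map_one] at h2
      exact Cfsg.Agent.Lib.Helper63.FrobComp.gz1 h2
    · have h1 : φ.symm Cfsg.Agent.S3378.gz * φ.symm Cfsg.Agent.S3378.gz = 1 := by
        rw [← map_mul, ← pow_two, Cfsg.Agent.Lib.Helper63.FrobComp.gz2, map_one]
      exact congrArg Subtype.val h1
  have hzo : orderOf z = 2 := orderOf_eq_prime (by rw [pow_two]; exact hzz) hz1
  have hzc : ∀ g : G, g * z = z * g := by
    intro g
    have h1 : (g * z * g⁻¹) ^ 2 = 1 := by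
      rw [pow_two]
      calc g * z * g⁻¹ * (g * z * g⁻¹) = g * (z * z) * g⁻¹ := by group
        _ = 1 := by rw [hzz]; group
    have h2 : g * z * g⁻¹ ≠ 1 := fun h => hz1 (by
      calc z = g⁻¹ * (g * z * g⁻¹) * g := by group
        _ = 1 := by rw [h]; group)
    have h3 := hinv _ _ (orderOf_eq_prime h1 h2) hzo
    calc g * z = (g * z * g⁻¹) * g := by group
      _ = z * g := by rw [h3]
  -- the structure of `G₀`
  have hdSM : Disjoint S M := disjoint_iff.mpr hSM
  obtain ⟨hG₀card, hdec⟩ := card_sup_of_commute S M hcomm hdSM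
  rw [hsup] at hG₀card hdec
  have hMpow : ∀ x ∈ M, x ^ m = 1 := by
    intro x hx
    have := pow_card_eq_one' (G := M) (x := ⟨x, hx⟩)
    rw [← hm] at this
    have := congrArg Subtype.val this
    simpa using this
  have hSpow : ∀ s ∈ S, s ^ m = 1 → s = 1 := by
    intro s hs h
    have h1 : orderOf s ∣ m := orderOf_dvd_of_pow_eq_one h
    have h2 : orderOf s ∣ 120 := by
      have := orderOf_dvd_natCard (⟨s, hs⟩ : S)
      rwa [Subgroup.orderOf_mk, hS120] at this
    exact orderOf_eq_one_iff.mp (Nat.eq_one_of_dvd_coprimes hm120 h1 h2)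
  have hMn : M.Normal := by
    refine ⟨fun x hx g => ?_⟩
    have h1 : g * x * g⁻¹ ∈ G₀ :=
      hG₀n.conj_mem x (hsup ▸ (le_sup_right : M ≤ S ⊔ M) hx) g
    obtain ⟨s, hs, y, hy, hsy⟩ := hdec _ h1
    have h2 : (g * x * g⁻¹) ^ m = 1 := by
      rw [conj_pow, hMpow x hx]; group
    rw [hsy, (show Commute s y from hcomm s hs y hy).mul_pow, hMpow y hy, mul_one] at h2
    rw [hsy, hSpow s hs h2, one_mul]
    exact hy
  haveI := hMn
  have hZn : (Subgroup.zpowers z).Normal := by
    refine ⟨fun x hx g => ?_⟩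
    obtain ⟨j, rfl⟩ := Subgroup.mem_zpowers_iff.mp hx
    have : g * z ^ j * g⁻¹ = z ^ j := by
      have hc : Commute g (z ^ j) := (show Commute g z from hzc g).zpow_right j
      rw [hc.eq]; group
    rw [this]; exact Subgroup.zpow_mem_zpowers z j
  haveI := hZn
  obtain ⟨N, hN⟩ : ∃ N : Subgroup G, N = Subgroup.zpowers z ⊔ M := ⟨_, rfl⟩
  have hNn : N.Normal := hN ▸ inferInstance
  have hZM : ∀ a ∈ Subgroup.zpowers z, ∀ b ∈ M, a * b = b * a := by
    intro a ha b hb
    exact hcomm a ((Subgroup.zpowers_le.mpr hzS) ha) b hb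
  have hZcard : Nat.card (Subgroup.zpowers z) = 2 := by rw [Nat.card_zpowers, hzo]
  have hdZM : Disjoint (Subgroup.zpowers z) M :=
    Subgroup.disjoint_of_coprime_natCard (by rw [hZcard, ← hm]; exact hm2.symm)
  obtain ⟨hNcard', hNdec⟩ := card_sup_of_commute (Subgroup.zpowers z) M hZM hdZM
  rw [← hN] at hNcard' hNdec
  have hNcard : Nat.card N = 2 * m := by rw [hNcard', hZcard, hm]
  have hNG₀ : N ≤ G₀ := by
    rw [hN, ← hsup]
    exact sup_le_sup_right (Subgroup.zpowers_le.mpr hzS) M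
  have hNZ : IsZGroup N := by
    refine ⟨fun p hp P => ?_⟩
    haveI := Fact.mk hp
    rcases eq_or_ne p 2 with rfl | hp2
    · obtain ⟨k, hk⟩ := IsPGroup.iff_card.mp P.2
      have h1 : 2 ^ k ∣ 2 * m := by
        rw [← hk, ← hNcard]; exact Subgroup.card_subgroup_dvd_card _
      have hk1 : k ≤ 1 := by
        by_contra hcon
        push Not at hcon
        have h3 : 2 ^ 2 ∣ 2 * m := (pow_dvd_pow 2 hcon).trans h1
        exact hmodd (by omega)
      apply isCyclic_of_card_le_two
      rw [hk]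
      interval_cases k <;> norm_num
    · have h1 : IsPGroup p ((P : Subgroup N).map N.subtype) := P.2.map _
      haveI := hodd p hp2 _ h1
      exact isCyclic_of_surjective
        ((Subgroup.equivMapOfInjective (P : Subgroup N) N.subtype N.subtype_injective).symm)
        (MulEquiv.surjective _)
  -- the quotient
  haveI := hNn
  obtain ⟨π, hπdef⟩ : ∃ π : G →* G ⧸ N, π = QuotientGroup.mk' N := ⟨_, rfl⟩
  have hπ : Function.Surjective π := hπdef ▸ QuotientGroup.mk'_surjective N
  have hπker : π.ker = N := hπdef ▸ QuotientGroup.ker_mk' N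
  have hmemN : ∀ x : G, π x = 1 ↔ x ∈ N := fun x => by rw [← MonoidHom.mem_ker, hπker]
  have hGcard : Nat.card G = G₀.index * (120 * m) := by
    rw [← Subgroup.index_mul_card G₀, hG₀card, hS120, hm]
  have hQcard : Nat.card (G ⧸ N) = G₀.index * 60 := by
    have h1 := Subgroup.card_eq_card_quotient_mul_card_subgroup N
    rw [hGcard, hNcard] at h1
    apply Nat.eq_of_mul_eq_mul_right (show 0 < 2 * m by omega)
    rw [← h1]; ring
  -- the perfect image
  haveI hSperf : Group.IsPerfect S := by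
    have h20 : (2 : ZMod 5) ≠ 0 := by decide
    have h21 : (2 : ZMod 5) ^ 2 ≠ 1 := by decide
    haveI : Fact (Nat.Prime 5) := ⟨by norm_num⟩
    have h : commutator (Matrix.SpecialLinearGroup (Fin 2) (ZMod 5)) = ⊤ :=
      Matrix.SL2.commutator_eq_top (a := (2 : ZMod 5)) h20 h21
    haveI : Group.IsPerfect (Matrix.SpecialLinearGroup (Fin 2) (ZMod 5)) := ⟨h⟩
    exact Group.IsPerfect.ofSurjective (f := φ.symm.toMonoidHom) φ.symm.surjective
  haveI hSπperf : Group.IsPerfect (S.map π) := Group.IsPerfect.map _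
  haveI hSπnt : Nontrivial (S.map π) := by
    by_contra hcon
    rw [not_nontrivial_iff_subsingleton] at hcon
    have h1 : S.map π = ⊥ := Subgroup.eq_bot_of_subsingleton _
    have h2 : S ≤ N := by
      intro s hs
      rw [← hmemN]
      have : π s ∈ S.map π := Subgroup.mem_map_of_mem π hs
      rw [h1] at this
      exact Subgroup.mem_bot.mp this
    have h3 := Subgroup.card_dvd_of_le h2
    rw [hS120, hNcard] at h3
    exact hmodd (by omega)
  have hSπns : ¬ Group.IsSolvable (S.map π) := Group.IsPerfect.not_isSolvable _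
  refine ⟨N, hNn, hNZ, ?_⟩
  rcases hidx with h1 | h1
  · left
    rw [h1, one_mul] at hQcard
    have hns : ¬ Group.IsSolvable (G ⧸ N) := fun h => hSπns (by haveI := h; infer_instance)
    haveI := Cfsg.Agent.S3378.simple_of_60 (G ⧸ N) hQcard hns
    obtain ⟨E⟩ := Cfsg.Agent.Lib.Helper6.simple_card_sixty hQcard
    exact ⟨E.toMonoidHom.comp π, E.surjective.comp hπ,
      by rw [ker_equiv_comp, hπker]⟩
  · right
    rw [h1] at hQcard
    obtain ⟨A, hAdef⟩ : ∃ A : Subgroup (G ⧸ N), A = G₀.map π := ⟨_, rfl⟩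
    have hAn : A.Normal := hAdef ▸ Subgroup.Normal.map hG₀n π hπ
    have hAidx : A.index = 2 := by
      rw [hAdef, Subgroup.index_map_eq G₀ hπ ((le_of_eq hπker).trans hNG₀), h1]
    have hA60 : Nat.card A = 60 := by
      have := Subgroup.card_mul_index A
      rw [hAidx, hQcard] at this
      omega
    have hAns : ¬ Group.IsSolvable A := by
      intro h
      apply hSπns
      have hle : S.map π ≤ A := hAdef ▸ Subgroup.map_mono (hsup ▸ le_sup_left)
      exact Group.isSolvable_of_isSolvable_injective (f := Subgroup.inclusion hle)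
        (Subgroup.inclusion_injective hle)
    haveI := Cfsg.Agent.S3378.simple_of_60 A hA60 hAns
    obtain ⟨eA⟩ := Cfsg.Agent.Lib.Helper6.simple_card_sixty hA60
    obtain ⟨T⟩ : Nonempty (Sylow 2 G) := inferInstance
    have hTcard : Nat.card (T : Subgroup G) = 16 := by
      have h3 := Subgroup.card_mul_index (T : Subgroup G)
      rw [hGcard, h1] at h3
      obtain ⟨k, hk⟩ := IsPGroup.iff_card.mp T.2
      have h4 : ¬ 2 ∣ (T : Subgroup G).index := T.not_dvd_index
      rw [hk] at h3 ⊢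
      have h5 : 2 ^ k ∣ 240 := by
        have : 2 ^ k ∣ 240 * m := ⟨(T : Subgroup G).index, by rw [h3]; ring⟩
        exact (Nat.Coprime.dvd_of_dvd_mul_right (Nat.Coprime.pow_left k hm2.symm) this)
      have hk4 : k ≤ 4 := by
        by_contra hcon
        push Not at hcon
        have : 2 ^ 5 ∣ 240 := (pow_dvd_pow 2 hcon).trans h5
        omega
      have h6 : 2 ^ 4 ∣ 2 ^ k := by
        have : 2 ^ 4 ∣ 2 ^ k * (T : Subgroup G).index := ⟨15 * m, by rw [h3]; ring⟩
        have hc : Nat.Coprime (2 ^ 4) (T : Subgroup G).index :=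
          Nat.Coprime.pow_left 4 ((Nat.Prime.coprime_iff_not_dvd Nat.prime_two).mpr h4)
        exact hc.dvd_of_dvd_mul_right this
      interval_cases k <;> first | rfl | (exfalso; revert h6; norm_num)
    obtain ⟨t, ht⟩ : ∃ t : G, orderOf t = 8 := by
      rcases h2 (T : Subgroup G) T.2 with hc | ⟨n, ⟨e⟩⟩
      · obtain ⟨g, hg⟩ := hc.exists_generator
        have ho : orderOf g = 16 := by rw [orderOf_eq_card_of_forall_mem_zpowers hg, hTcard]
        refine ⟨((g ^ 2 : (T : Subgroup G)) : G), ?_⟩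
        rw [Subgroup.orderOf_coe, orderOf_pow_of_dvd (by norm_num) (by rw [ho]; norm_num), ho]
      · haveI : NeZero (2 ^ n) := ⟨by positivity⟩
        have hn : n = 2 := by
          have h5 : Nat.card (T : Subgroup G) = 4 * 2 ^ n := by
            rw [Nat.card_congr e.toEquiv, Nat.card_eq_fintype_card, QuaternionGroup.card]
          rw [hTcard] at h5
          have h6 : 2 ^ n = 2 ^ 2 := by omega
          exact Nat.pow_right_injective (le_refl 2) h6
        subst hn
        refine ⟨((e.symm (QuaternionGroup.a 1) : (T : Subgroup G)) : G), ?_⟩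
        rw [Subgroup.orderOf_coe, MulEquiv.orderOf_eq, QuaternionGroup.orderOf_a_one]
        norm_num
    have hx4 : (π t) ^ 4 = 1 ∧ (π t) ^ 2 ≠ 1 := by
      constructor
      · rw [← map_pow, hmemN]
        have h5 : orderOf (t ^ 4) = 2 := by
          rw [orderOf_pow_of_dvd (by norm_num) (by rw [ht]; norm_num), ht]
        have h6 : t ^ 4 = z := hinv _ _ h5 hzo
        rw [h6, hN]
        exact (le_sup_left : Subgroup.zpowers z ≤ _) (Subgroup.mem_zpowers z)
      · rw [← map_pow, Ne, hmemN]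
        intro h
        have h5 : orderOf (t ^ 2) = 4 := by
          rw [orderOf_pow_of_dvd (by norm_num) (by rw [ht]; norm_num), ht]
        have h6 : orderOf (t ^ 2) ∣ Nat.card N := by
          have := orderOf_dvd_natCard (⟨t ^ 2, h⟩ : N)
          rwa [Subgroup.orderOf_mk] at this
        rw [h5, hNcard] at h6
        exact hmodd (by omega)
    obtain ⟨E⟩ := perm5_of_card_120 A eA hQcard ⟨π t, hx4⟩
    exact ⟨E.toMonoidHom.comp π, E.surjective.comp hπ,
      by rw [ker_equiv_comp, hπker]⟩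

end Cfsg.Agent.Lib.Helper73.FC
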