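import Mathlib
import Cfsg.Agent.Lib.Helper22.HPDefs
import Cfsg.Agent.Lib.Helper83.IrrBasic
import Cfsg.Agent.Lib.Helper4.CharClosure
import Cfsg.Agent.Lib.Helper4.CharDecomp
import Cfsg.Agent.Lib.Helper83.LinearCount

/-!
# S4504 / HP-RECOG sub-piece ABNORM (helper73 for helper1)

A character of degree 3 restricted to an abelian subgroup has norm 3, 5 or 9.
-/

set_option autoImplicit false
set_option linter.style.haveILetI false

namespace Cfsg.Agent.Lib.Helper73.HPR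

open Cfsg Cfsg.Agent.Lib.Helper22.BFD Cfsg.Agent.Lib.Helper22.HPD
open scoped ComplexConjugate

universe u

theorem hprabnorm_sq_sum {ι : Type*} [Fintype ι] (m : ι → ℕ) (h : ∑ i, m i = 3) :
    ∑ i, m i ^ 2 = 3 ∨ ∑ i, m i ^ 2 = 5 ∨ ∑ i, m i ^ 2 = 9 := by
  classical
  by_cases h2 : ∃ i, 2 ≤ m i
  · obtain ⟨i₀, hi₀⟩ := h2
    have e1 := Finset.add_sum_erase Finset.univ m (Finset.mem_univ i₀)
    have e2 := Finset.add_sum_erase Finset.univ (fun i => m i ^ 2) (Finset.mem_univ i₀)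
    have hle : ∀ j ∈ Finset.univ.erase i₀, m j ≤ 1 := by
      intro j hj
      have := Finset.single_le_sum (f := m) (fun i _ => Nat.zero_le _) hj
      omega
    have e3 : ∑ j ∈ Finset.univ.erase i₀, m j ^ 2 = ∑ j ∈ Finset.univ.erase i₀, m j := by
      refine Finset.sum_congr rfl fun j hj => ?_
      have := hle j hj
      interval_cases (m j) <;> rfl
    have hi3 : m i₀ = 2 ∨ m i₀ = 3 := by omega
    rcases hi3 with h' | h'
    · right; left
      rw [← e2, e3]; simp only [h'] at e1 ⊢; omega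
    · right; right
      rw [← e2, e3]; simp only [h'] at e1 ⊢; omega
  · left
    push Not at h2
    rw [← h]
    refine Finset.sum_congr rfl fun j _ => ?_
    have := h2 j
    interval_cases (m j) <;> rfl

open Classical in
/-- SUB-PIECE ABNORM: a character of degree 3 restricted to an abelian subgroup has norm 3, 5 or 9 -/
theorem recog_ab_norm {G : Type u} [Group G] [Fintype G] (χ : G → ℂ) (hχ : IsCharacter G χ)
    (hdeg : charDegree χ = 3) (A : Subgroup G) (hA : ∀ a ∈ A, ∀ b ∈ A, a * b = b * a) :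
    ∃ k : ℕ, (k = 3 ∨ k = 5 ∨ k = 9) ∧
      ∑ a ∈ Finset.univ.filter (fun a : G => a ∈ A), ‖χ a‖ ^ 2 = (Nat.card A : ℝ) * k := by
  haveI : IsMulCommutative ↥A := ⟨⟨fun a b => Subtype.ext (hA a a.2 b b.2)⟩⟩
  have hψ := Cfsg.Agent.Lib.Helper4.isCharacter_restrict A χ hχ
  have hfin : Finite (IrrCharacter ↥A) := Cfsg.Agent.Lib.Helper4.irr_finite
  let _ : Fintype (IrrCharacter ↥A) := Fintype.ofFinite _
  obtain ⟨m, hm⟩ := Cfsg.Agent.Lib.Helper4.exists_decomp_of_isCharacter _ hψ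
  have hχ1 : χ 1 = 3 := by
    obtain ⟨n, ρ, rfl⟩ := hχ
    have h1 : ρ.character 1 = (n : ℂ) := by
      rw [Representation.char_one]; simp
    rw [charDegree, h1] at hdeg
    simp at hdeg
    rw [h1, hdeg]; norm_num
  have hsum : ∑ θ : IrrCharacter ↥A, m θ = 3 := by
    have h1 := congrFun hm 1
    simp only [Finset.sum_apply, Pi.smul_apply, smul_eq_mul] at h1
    have h2 : ∀ θ : IrrCharacter ↥A, (θ : ↥A → ℂ) 1 = 1 := fun θ =>
      Cfsg.Agent.Lib.Helper83.irr_comm_degree θ.2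
    simp only [h2, mul_one] at h1
    have h3 : ((∑ θ : IrrCharacter ↥A, m θ : ℕ) : ℂ) = ((3 : ℕ) : ℂ) := by
      push_cast
      rw [← h1]
      exact hχ1
    exact_mod_cast h3
  have hinner := Cfsg.Agent.Lib.Helper4.classInner_sum_sum_irr (G := ↥A)
    (fun θ => (m θ : ℂ)) (fun θ => (m θ : ℂ))
  rw [← hm] at hinner
  have hK := hprabnorm_sq_sum m hsum
  refine ⟨∑ θ : IrrCharacter ↥A, m θ ^ 2, hK, ?_⟩
  have hsub : ∑ a ∈ Finset.univ.filter (fun a : G => a ∈ A), ‖χ a‖ ^ 2 =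
      ∑ a : ↥A, ‖χ a‖ ^ 2 :=
    Finset.sum_subtype _ (fun x => by simp) _
  rw [hsub]
  have hcard : (Nat.card ↥A : ℂ) ≠ 0 := by
    have : 0 < Nat.card ↥A := Nat.card_pos
    exact_mod_cast this.ne'
  rw [classInner] at hinner
  have h5 : ∀ a : ↥A, χ a * conj (χ a) = ((‖χ a‖ ^ 2 : ℝ) : ℂ) := fun a => by
    rw [Complex.mul_conj, Complex.normSq_eq_norm_sq]
  simp only [h5] at hinner
  have h6 : ∀ θ : IrrCharacter ↥A, (m θ : ℂ) * conj (m θ : ℂ) = ((m θ ^ 2 : ℕ) : ℂ) := fun θ => by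
    rw [Complex.conj_natCast]; push_cast; ring
  simp only [h6] at hinner
  have h7 : ((∑ a : ↥A, ‖χ a‖ ^ 2 : ℝ) : ℂ) =
      (((Nat.card ↥A : ℝ) * (∑ θ : IrrCharacter ↥A, m θ ^ 2 : ℕ) : ℝ) : ℂ) := by
    push_cast
    push_cast at hinner
    rw [← hinner]
    field_simp
  exact_mod_cast h7

end Cfsg.Agent.Lib.Helper73.HPR
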