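import Mathlib
import Cfsg.Agent.Lib.Helper45.MinIdxA

/-!
# S2140, piece H5B: complement analysis, rank `≥ 4`, characteristic `≠ 2`
-/

set_option autoImplicit false

namespace Cfsg.Agent.Lib.Helper73.MinIdx

open Matrix Cfsg.Agent.Lib.Helper50 Cfsg.Agent.Lib.Helper45.MinIdx

theorem compl_four_odd {ι : Type} [Fintype ι] [DecidableEq ι] {F : Type*} [Field F]
    (h2 : (2 : F) ≠ 0)
    (f : Fin 4 ↪ ι) (H : Subgroup (Matrix.SpecialLinearGroup ι F))
    (hfree : ∀ a φ : ι → F, a ≠ 0 → φ ⬝ᵥ a = 0 → tL a φ 1 ∈ H → φ = 0)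
    (hcompl : ∀ g : Matrix.SpecialLinearGroup ι F, ∃ φ : ι → F,
      φ ⬝ᵥ (Pi.single (f 0) 1 : ι → F) = 0 ∧ tL (Pi.single (f 0) 1) φ 1 * g ∈ H) : False := by
  classical
  -- distinctness of the indices
  have h01 : f 0 ≠ f 1 := fun h => absurd (f.injective h) (by decide)
  have h02 : f 0 ≠ f 2 := fun h => absurd (f.injective h) (by decide)
  have h03 : f 0 ≠ f 3 := fun h => absurd (f.injective h) (by decide)
  have h12 : f 1 ≠ f 2 := fun h => absurd (f.injective h) (by decide)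
  have h13 : f 1 ≠ f 3 := fun h => absurd (f.injective h) (by decide)
  have h23 : f 2 ≠ f 3 := fun h => absurd (f.injective h) (by decide)
  set e : ι → F := Pi.single (f 0) 1 with he_def
  set ψ : ι → F := Pi.single (f 1) 1 with hψ_def
  have he : e ≠ 0 := by
    intro h
    have := congrFun h (f 0)
    simp [he_def] at this
  have hψ0 : ψ ≠ 0 := by
    intro h
    have := congrFun h (f 1)
    simp [hψ_def] at this
  have hfree' : ∀ φ : ι → F, φ ⬝ᵥ e = 0 → tL e φ 1 ∈ H → φ = 0 := fun φ => hfree e φ he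
  have hψe : ψ ⬝ᵥ e = 0 := by
    rw [hψ_def, he_def, single_dotProduct, one_mul, Pi.single_apply, if_neg h01.symm]
  have hψK : ∀ b : ι → F, b (f 1) = 0 → ψ ⬝ᵥ b = 0 := by
    intro b hb
    rw [hψ_def, single_dotProduct, one_mul, hb]
  -- the lifts
  choose Φ hΦ1 hΦ2 using fun b : ι → F => hcompl (tL b ψ 1)
  -- (1) symmetry
  have hsym : ∀ b c : ι → F, b (f 1) = 0 → c (f 1) = 0 → Φ c ⬝ᵥ b = Φ b ⬝ᵥ c := by
    intro b c hb hc
    have h := rel_tv H e he hfree' b ψ c ψ hψe (hψK b hb) hψe (hψK c hc) (hψK c hc) (hψK b hb)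
      (Φ b) (Φ c) (hΦ1 b) (hΦ1 c) (hΦ2 b) (hΦ2 c)
    have h' := congrFun h (f 1)
    simpa [hψ_def] using h'
  -- (2) the diagonal
  have hdiag : ∀ b : ι → F, b (f 1) = 0 → Φ b ⬝ᵥ b = 0 := by
    intro b hb
    -- a functional `χ` vanishing on `e` and `b`, and at `f 1`, with a non-zero coordinate
    have hχ : ∃ χ : ι → F, χ ⬝ᵥ e = 0 ∧ χ ⬝ᵥ b = 0 ∧ ∃ j, j ≠ f 1 ∧ χ j ≠ 0 := by
      by_cases hb23 : b (f 2) = 0 ∧ b (f 3) = 0
      · refine ⟨Pi.single (f 2) 1, ?_, ?_, f 2, h12.symm, ?_⟩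
        · rw [he_def, single_dotProduct, one_mul, Pi.single_apply, if_neg h02.symm]
        · rw [single_dotProduct, one_mul, hb23.1]
        · simp
      · refine ⟨b (f 3) • Pi.single (f 2) 1 - b (f 2) • Pi.single (f 3) 1, ?_, ?_, ?_⟩
        · rw [sub_dotProduct, smul_dotProduct, smul_dotProduct, he_def, single_dotProduct,
            single_dotProduct, Pi.single_apply, Pi.single_apply, if_neg h02.symm,
            if_neg h03.symm]
          simp
        · rw [sub_dotProduct, smul_dotProduct, smul_dotProduct, single_dotProduct,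
            single_dotProduct]
          simp only [one_mul, smul_eq_mul]
          ring
        · by_cases h3 : b (f 3) = 0
          · have h2' : b (f 2) ≠ 0 := fun h => hb23 ⟨h, h3⟩
            refine ⟨f 3, h13.symm, ?_⟩
            simp [h23.symm, h2']
          · refine ⟨f 2, h12.symm, ?_⟩
            simp [h23, h3]
    obtain ⟨χ, hχe, hχb, j, hj1, hχj⟩ := hχ
    obtain ⟨φ', hφ'1, hφ'2⟩ := hcompl (tL b χ 1)
    have h := rel_tv H e he hfree' b ψ b χ hψe (hψK b hb) hχe hχb (hψK b hb) hχb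
      (Φ b) φ' (hΦ1 b) hφ'1 (hΦ2 b) hφ'2
    have h' := congrFun h j
    simp only [Pi.smul_apply, smul_eq_mul, hψ_def, Pi.single_apply, if_neg hj1, mul_zero] at h'
    rcases mul_eq_zero.1 h'.symm with h0 | h0
    · exact h0
    · exact absurd h0 hχj
  -- (3) the form vanishes
  have hzero : ∀ b c : ι → F, b (f 1) = 0 → c (f 1) = 0 → Φ b ⬝ᵥ c = 0 := by
    intro b c hb hc
    have hbc : (b + c) (f 1) = 0 := by rw [Pi.add_apply, hb, hc, add_zero]
    have e1 := hdiag (b + c) hbc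
    rw [dotProduct_add, hsym b (b + c) hb hbc, hsym c (b + c) hc hbc, dotProduct_add,
      dotProduct_add, hdiag b hb, hdiag c hc, hsym b c hb hc] at e1
    have e2 : (2 : F) * (Φ b ⬝ᵥ c) = 0 := by linear_combination e1
    rcases mul_eq_zero.1 e2 with h0 | h0
    · exact absurd h0 h2
    · exact h0
  -- (4) conclusion
  set b : ι → F := Pi.single (f 2) 1 with hb_def
  have hbK : b (f 1) = 0 := by rw [hb_def, Pi.single_apply, if_neg h12]
  have hΦb : Φ b = (Φ b (f 1)) • ψ := by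
    funext j
    by_cases hj : j = f 1
    · rw [hj, Pi.smul_apply, hψ_def, Pi.single_eq_same, smul_eq_mul, mul_one]
    · have hjK : (Pi.single j 1 : ι → F) (f 1) = 0 := by
        rw [Pi.single_apply, if_neg (Ne.symm hj)]
      have h0 := hzero b (Pi.single j 1) hbK hjK
      rw [dotProduct_single, mul_one] at h0
      rw [h0, Pi.smul_apply, hψ_def, Pi.single_apply, if_neg hj, smul_zero]
  have hne : ∀ c : F, b ≠ c • e := by
    intro c h
    have := congrFun h (f 2)
    rw [hb_def, Pi.single_eq_same, Pi.smul_apply, he_def, Pi.single_apply, if_neg h02.symm,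
      smul_zero] at this
    exact one_ne_zero this
  have hmem := hΦ2 b
  rw [hΦb] at hmem
  exact no_prop H e hfree b ψ hne hψ0 hψe (hψK b hbK) _ hmem

end Cfsg.Agent.Lib.Helper73.MinIdx
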