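import Mathlib
import Cfsg.Prelude.Def_GeometricClasses
import Cfsg.Agent.Lib.Helper71.OK1
import Cfsg.Agent.Lib.Helper52.Siegel

/-!
# S5701, piece G: transport of `ZW` along an element of `NO`
-/

set_option autoImplicit false

namespace Cfsg.Agent.Lib.Helper73.OKG

open Matrix Cfsg.Agent.Lib.Helper71.SpK Cfsg.Agent.Lib.Helper71.OK

theorem ZW_of_NO {ι : Type} [Fintype ι] [DecidableEq ι] {F : Type*} [Field F] [Finite F]
    {Q : QuadraticForm F (ι → F)} {L : Type*} [Field L] [Algebra F L] [FiniteDimensional F L]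
    (S : KO (QuadraticMap.polar ⇑Q) L) (h2 : (2 : F) ≠ 0)
    (hQ : (QuadraticMap.polarBilin Q).Nondegenerate)
    (hr : (Module.finrank F L).Prime) (hd : 4 * Module.finrank F L ≤ Fintype.card ι) (M : Subgroup (GL ι F)) (hNM : S.NO Q ≤ M) (hMΩ : M ≤ Cfsg.Geo.omegaGL ⇑Q) {u v : ι → F} {g : GL ι F} (hg : g ∈ S.NO Q) {c : L} (hc : c ≠ 0)
    (hgu : (g : Matrix ι ι F) *ᵥ u = S.φ c *ᵥ v) (hZ : S.ZW M u) : S.ZW M v := by
  intro a b
  obtain ⟨γ, hγM, hγ⟩ := hZ (a * c⁻¹) (b * c⁻¹)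
  have hgΩ : g ∈ Cfsg.Geo.omegaGL ⇑Q := S.NO_le_omega hg
  refine ⟨g * γ * g⁻¹, M.mul_mem (M.mul_mem (hNM hg) hγM) (M.inv_mem (hNM hg)), ?_⟩
  -- the images of the two vectors
  have hx : ∀ a' : L, (g : Matrix ι ι F) *ᵥ (S.φ (a' * c⁻¹) *ᵥ u) = S.φ a' *ᵥ v := by
    intro a'
    rw [S.NO_act hg, hgu, ← S.φ_mul_mulVec, mul_assoc, inv_mul_cancel₀ hc, mul_one]
  apply Matrix.mulVec_injective
  funext t
  rw [gl_mul_mulVec, gl_mul_mulVec, hγ, Cfsg.Agent.Lib.Helper52.eichMat_mulVec,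
    Cfsg.Agent.Lib.Helper52.eichMat_mulVec, Matrix.mulVec_sub, Matrix.mulVec_sub,
    Matrix.mulVec_add, Matrix.mulVec_smul, Matrix.mulVec_smul, Matrix.mulVec_smul,
    gl_mulVec_inv', hx a, hx b]
  have e1 : ∀ y : ι → F, QuadraticMap.polar ⇑Q y (((g⁻¹ : GL ι F) : Matrix ι ι F) *ᵥ t) =
      QuadraticMap.polar ⇑Q ((g : Matrix ι ι F) *ᵥ y) t := by
    intro y
    rw [← omega_polar Q hgΩ y, gl_mulVec_inv']
  have e2 : Q (S.φ (b * c⁻¹) *ᵥ u) = Q (S.φ b *ᵥ v) := by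
    rw [← hx b, omega_Q Q hgΩ]
  rw [e1, e1, hx a, hx b, e2]

end Cfsg.Agent.Lib.Helper73.OKG
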