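import Mathlib
import Cfsg.Agent.Lib.Helper72.PQDefs
import Cfsg.Agent.Lib.Helper32.NcAxB2

/-! S4306 piece PQ-AFIX (helper72's project): fixed points of the operator group lift through a
coprime invariant normal subgroup. -/

set_option autoImplicit false

namespace Cfsg.Agent.Lib.Helper73.PQ

open Cfsg.Agent.Lib.Helper72.PQ

universe u

/-- the normalizer of a subgroup normalizes its centralizer (conjugation form) -/
theorem afix_conj_mem_centralizer {Γ : Type u} [Group Γ] {F : Subgroup Γ} {g c : Γ}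
    (hg : g ∈ Subgroup.normalizer (F : Set Γ)) (hc : c ∈ Subgroup.centralizer (F : Set Γ)) :
    g * c * g⁻¹ ∈ Subgroup.centralizer (F : Set Γ) := by
  rw [Subgroup.mem_centralizer_iff]
  intro f hf
  have h1 : g⁻¹ * f * g⁻¹⁻¹ ∈ F :=
    (Subgroup.mem_normalizer_iff.mp (Subgroup.inv_mem _ hg) f).mp hf
  have h2 := Subgroup.mem_centralizer_iff.mp hc _ h1
  calc f * (g * c * g⁻¹) = g * ((g⁻¹ * f * g⁻¹⁻¹) * c) * g⁻¹ := by group
    _ = g * (c * (g⁻¹ * f * g⁻¹⁻¹)) * g⁻¹ := by rw [h2]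
    _ = g * c * g⁻¹ * f := by group

/-- PQ-AFIX. -/
theorem afix (h : AStrStmt.{u}) : AFixStmt.{u} := by
  intro Γ _ _ p ℓ A F N hfr hAN hcop x hxN hx
  obtain ⟨⟨t, htA, htF⟩, hord, hdec, -⟩ := h Γ p ℓ A F hfr
  haveI : Fact p.Prime := ⟨hfr.hp⟩
  haveI : Fact ℓ.Prime := ⟨hfr.hℓ⟩
  have hNp : (Nat.card N).Coprime p := Nat.Coprime.coprime_mul_right_right hcop
  have hNl : (Nat.card N).Coprime ℓ := Nat.Coprime.coprime_mul_left_right hcop
  have hFp : IsPGroup p F := IsPGroup.of_card (n := 1) (by rw [hfr.hF, pow_one])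
  have hFN : F ≤ Subgroup.normalizer (N : Set Γ) := hfr.hFA.trans hAN
  have hconj : ∀ g ∈ Subgroup.normalizer (N : Set Γ), ∀ n ∈ N, g * n * g⁻¹ ∈ N :=
    fun g hg n hn => (Subgroup.mem_normalizer_iff.mp hg n).mp hn
  have hconj' : ∀ g ∈ Subgroup.normalizer (N : Set Γ), ∀ n ∈ N, g⁻¹ * n * g ∈ N := by
    intro g hg n hn
    have := hconj g⁻¹ (Subgroup.inv_mem _ hg) n hn
    rwa [inv_inv] at this
  -- step 1: an element of the coset centralized by `F`
  obtain ⟨n₁, hn₁, hfix₁⟩ := Cfsg.Agent.Lib.Helper32.coset_fixed_elt p hFp hFN hNp x (by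
    intro a ha
    have h1 := hconj' x hxN _ (hx a (hfr.hFA ha))
    have e : x⁻¹ * (a * x * a⁻¹) = x⁻¹ * (a * x * a⁻¹ * x⁻¹) * x := by group
    rw [e]; exact h1)
  have hyN : x * n₁ ∈ Subgroup.normalizer (N : Set Γ) :=
    Subgroup.mul_mem _ hxN (Subgroup.le_normalizer hn₁)
  have hyA : ∀ a ∈ A, a * (x * n₁) * a⁻¹ * (x * n₁)⁻¹ ∈ N := by
    intro a ha
    have h1 : a * n₁ * a⁻¹ * n₁⁻¹ ∈ N := N.mul_mem (hconj a (hAN ha) n₁ hn₁) (N.inv_mem hn₁)
    have h2 := hconj x hxN _ h1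
    have e : a * (x * n₁) * a⁻¹ * (x * n₁)⁻¹ =
        (a * x * a⁻¹ * x⁻¹) * (x * (a * n₁ * a⁻¹ * n₁⁻¹) * x⁻¹) := by group
    rw [e]; exact N.mul_mem (hx a ha) h2
  have hyF : x * n₁ ∈ Subgroup.centralizer (F : Set Γ) := by
    rw [Subgroup.mem_centralizer_iff]
    intro f hf
    have h1 := hfix₁ f hf
    calc f * (x * n₁) = (f * (x * n₁) * f⁻¹) * f := by group
      _ = x * n₁ * f := by rw [h1]
  -- step 2: an element of the coset centralized by `F` and by `t`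
  have hPl : IsPGroup ℓ (Subgroup.zpowers t) :=
    IsPGroup.of_card (n := 1) (by rw [Nat.card_zpowers, hord t htA htF, pow_one])
  have hPA : Subgroup.zpowers t ≤ A := by rw [Subgroup.zpowers_le]; exact htA
  have hANF : A ≤ Subgroup.normalizer
      ((N ⊓ Subgroup.centralizer (F : Set Γ) : Subgroup Γ) : Set Γ) := by
    intro a ha
    rw [Subgroup.mem_normalizer_iff]
    intro c
    rw [Subgroup.mem_inf, Subgroup.mem_inf, ← Subgroup.mem_normalizer_iff.mp (hAN ha) c]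
    constructor
    · rintro ⟨h1, h2⟩
      exact ⟨h1, afix_conj_mem_centralizer (hfr.hAF ha) h2⟩
    · rintro ⟨h1, h2⟩
      refine ⟨h1, ?_⟩
      have h3 := afix_conj_mem_centralizer (Subgroup.inv_mem _ (hfr.hAF ha)) h2
      have e : a⁻¹ * (a * c * a⁻¹) * a⁻¹⁻¹ = c := by group
      rwa [e] at h3
  have hNFl : (Nat.card ↥(N ⊓ Subgroup.centralizer (F : Set Γ))).Coprime ℓ :=
    Nat.Coprime.coprime_dvd_left (Subgroup.card_dvd_of_le inf_le_left) hNl
  obtain ⟨n₂, hn₂, hfix₂⟩ := Cfsg.Agent.Lib.Helper32.coset_fixed_elt ℓ hPl (hPA.trans hANF) hNFl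
    (x * n₁) (by
    intro a ha
    have haA := hPA ha
    refine ⟨?_, ?_⟩
    · have h1 := hconj' (x * n₁) hyN _ (hyA a haA)
      have e : (x * n₁)⁻¹ * (a * (x * n₁) * a⁻¹) =
          (x * n₁)⁻¹ * (a * (x * n₁) * a⁻¹ * (x * n₁)⁻¹) * (x * n₁) := by group
      rw [e]; exact h1
    · have h1 : a * (x * n₁) * a⁻¹ ∈ Subgroup.centralizer (F : Set Γ) :=
        afix_conj_mem_centralizer (hfr.hAF haA) hyF
      exact Subgroup.mul_mem _ (Subgroup.inv_mem _ hyF) h1)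
  refine ⟨n₁ * n₂, N.mul_mem hn₁ hn₂.1, ?_⟩
  have hzF : ∀ f ∈ F, f * (x * (n₁ * n₂)) = x * (n₁ * n₂) * f := by
    intro f hf
    have h1 : x * (n₁ * n₂) ∈ Subgroup.centralizer (F : Set Γ) := by
      rw [← mul_assoc]; exact Subgroup.mul_mem _ hyF hn₂.2
    exact Subgroup.mem_centralizer_iff.mp h1 f hf
  have hzt : Commute t (x * (n₁ * n₂)) := by
    have h1 := hfix₂ t (Subgroup.mem_zpowers t)
    rw [mul_assoc x n₁ n₂] at h1
    show t * (x * (n₁ * n₂)) = x * (n₁ * n₂) * t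
    calc t * (x * (n₁ * n₂)) = (t * (x * (n₁ * n₂)) * t⁻¹) * t := by group
      _ = x * (n₁ * n₂) * t := by rw [h1]
  intro a ha
  obtain ⟨f, hf, i, rfl⟩ := hdec t htA htF a ha
  have hti : t ^ i * (x * (n₁ * n₂)) = x * (n₁ * n₂) * t ^ i := (hzt.pow_left i).eq
  rw [mul_assoc, hti, ← mul_assoc, hzF f hf, mul_assoc]

end Cfsg.Agent.Lib.Helper73.PQ
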