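import Mathlib

/-!
# S5876 piece GT1 (job board, poster helper80)

`N` a nilpotent normal subgroup of a finite group `G`, `M` maximal among the abelian normal
subgroups of `G` inside `N`, `h ∈ N \ M`: there is `y ∈ N` with `1 ≠ [h, y] ∈ M`.
-/

set_option autoImplicit false

namespace Cfsg.Agent.Lib.Helper73

/-- the subgroup `U` of GT1: elements of `N ∩ C(M)` whose commutators with `N` lie in `M` -/
def psGT1U {G : Type*} [Group G] (N M : Subgroup G) [N.Normal] [hM : M.Normal] : Subgroup G where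
  carrier := {x | x ∈ N ∧ (∀ m ∈ M, x * m = m * x) ∧ ∀ n ∈ N, x * n * x⁻¹ * n⁻¹ ∈ M}
  one_mem' := ⟨N.one_mem, fun m _ => by rw [one_mul, mul_one], fun n _ => by
    have e : (1 : G) * n * 1⁻¹ * n⁻¹ = 1 := by group
    rw [e]
    exact M.one_mem⟩
  mul_mem' := by
    rintro x y ⟨hx1, hx2, hx3⟩ ⟨hy1, hy2, hy3⟩
    refine ⟨N.mul_mem hx1 hy1, fun m hm => ?_, fun n hn => ?_⟩
    · rw [mul_assoc, hy2 m hm, ← mul_assoc, hx2 m hm, mul_assoc]
    · have e : x * y * n * (x * y)⁻¹ * n⁻¹ =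
          x * (y * n * y⁻¹ * n⁻¹) * x⁻¹ * (x * n * x⁻¹ * n⁻¹) := by group
      rw [e]
      exact M.mul_mem (hM.conj_mem _ (hy3 n hn) x) (hx3 n hn)
  inv_mem' := by
    rintro x ⟨hx1, hx2, hx3⟩
    refine ⟨N.inv_mem hx1, fun m hm => ?_, fun n hn => ?_⟩
    · have h := hx2 m hm
      calc x⁻¹ * m = x⁻¹ * (m * x) * x⁻¹ := by group
        _ = x⁻¹ * (x * m) * x⁻¹ := by rw [h]
        _ = m * x⁻¹ := by group
    · have e : x⁻¹ * n * x⁻¹⁻¹ * n⁻¹ = x⁻¹ * (x * n * x⁻¹ * n⁻¹)⁻¹ * x⁻¹⁻¹ := by group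
      rw [e]
      exact hM.conj_mem _ (M.inv_mem (hx3 n hn)) x⁻¹

theorem psGT1U_normal {G : Type*} [Group G] (N M : Subgroup G) [hN : N.Normal] [hM : M.Normal] :
    (psGT1U N M).Normal := by
  constructor
  rintro x ⟨hx1, hx2, hx3⟩ g
  refine ⟨hN.conj_mem x hx1 g, fun m hm => ?_, fun n hn => ?_⟩
  · have hm' : g⁻¹ * m * g ∈ M := by simpa using hM.conj_mem m hm g⁻¹
    have h := hx2 _ hm'
    calc g * x * g⁻¹ * m = g * (x * (g⁻¹ * m * g)) * g⁻¹ := by group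
      _ = g * ((g⁻¹ * m * g) * x) * g⁻¹ := by rw [h]
      _ = m * (g * x * g⁻¹) := by group
  · have hn' : g⁻¹ * n * g ∈ N := by simpa using hN.conj_mem n hn g⁻¹
    have e : g * x * g⁻¹ * n * (g * x * g⁻¹)⁻¹ * n⁻¹ =
        g * (x * (g⁻¹ * n * g) * x⁻¹ * (g⁻¹ * n * g)⁻¹) * g⁻¹ := by group
    rw [e]
    exact hM.conj_mem _ (hx3 _ hn') g

/-- in a nilpotent normal subgroup `N`, an element of `C_N(M) \ M` can be chosen with all its
commutators with `N` inside `M` -/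
theorem psGT1_chain {G : Type*} [Group G] (N M : Subgroup G) [hM : M.Normal]
    (hNnil : Group.IsNilpotent ↥N) (h : G) (hhN : h ∈ N) (h1 : ∀ m ∈ M, h * m = m * h)
    (hhM : h ∉ M) :
    ∃ x, x ∈ N ∧ (∀ m ∈ M, x * m = m * x) ∧ x ∉ M ∧ ∀ n ∈ N, x * n * x⁻¹ * n⁻¹ ∈ M := by
  by_contra hno
  have hno' : ∀ x, x ∈ N → (∀ m ∈ M, x * m = m * x) → x ∉ M →
      ∃ n ∈ N, x * n * x⁻¹ * n⁻¹ ∉ M := by
    intro x hx1 hx2 hx3
    by_contra hc
    apply hno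
    refine ⟨x, hx1, hx2, hx3, fun n hn => ?_⟩
    by_contra hn'
    exact hc ⟨n, hn, hn'⟩
  have key : ∀ i : ℕ, ∃ x ∈ N.lowerCentralSeries i, (∀ m ∈ M, x * m = m * x) ∧ x ∉ M := by
    intro i
    induction i with
    | zero => exact ⟨h, hhN, h1, hhM⟩
    | succ i ih =>
      obtain ⟨x, hx, hxM, hxn⟩ := ih
      obtain ⟨n, hn, hc⟩ := hno' x (N.lowerCentralSeries_le_self i hx) hxM hxn
      refine ⟨x * n * x⁻¹ * n⁻¹, ?_, ?_, hc⟩
      · rw [Subgroup.lowerCentralSeries_succ, ← commutatorElement_def]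
        exact Subgroup.commutator_mem_commutator hx hn
      · intro m hm
        have hm' : n⁻¹ * m * n ∈ M := by simpa using hM.conj_mem m hm n⁻¹
        have hx' := hxM _ hm'
        have hxm := hxM m hm
        calc x * n * x⁻¹ * n⁻¹ * m = x * n * x⁻¹ * ((n⁻¹ * m * n) * x) * x⁻¹ * n⁻¹ := by group
          _ = x * n * x⁻¹ * (x * (n⁻¹ * m * n)) * x⁻¹ * n⁻¹ := by rw [hx']
          _ = (x * m) * n * x⁻¹ * n⁻¹ := by group
          _ = (m * x) * n * x⁻¹ * n⁻¹ := by rw [hxm]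
          _ = m * (x * n * x⁻¹ * n⁻¹) := by group
  obtain ⟨c, hc⟩ := (Subgroup.isNilpotent_iff_lowerCentralSeries N).mp hNnil
  obtain ⟨x, hx, -, hxn⟩ := key c
  rw [hc, Subgroup.mem_bot] at hx
  rw [hx] at hxn
  exact hxn M.one_mem

theorem psGT1_aux {G : Type*} [Group G] [Finite G] (M : Subgroup G) [hM : M.Normal]
    (hMab : ∀ a ∈ M, ∀ b ∈ M, a * b = b * a) :
    ∀ (k : ℕ) (N : Subgroup G), Nat.card N = k → N.Normal → Group.IsNilpotent ↥N → M ≤ N →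
    (∀ B : Subgroup G, B.Normal → M ≤ B → B ≤ N → (∀ a ∈ B, ∀ b ∈ B, a * b = b * a) → B = M) →
    ∀ h : G, h ∈ N → h ∉ M → ∃ y ∈ N, h * y * h⁻¹ * y⁻¹ ∈ M ∧ h * y * h⁻¹ * y⁻¹ ≠ 1 := by
  intro k
  induction k using Nat.strong_induction_on with
  | _ k ih =>
  intro N hk hNn hNnil hMN hmax h hhN hhM
  haveI := hNn
  have hne1 : ∀ y : G, h * y ≠ y * h → h * y * h⁻¹ * y⁻¹ ≠ 1 := by
    intro y hy e
    apply hy
    calc h * y = (h * y * h⁻¹ * y⁻¹) * (y * h) := by group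
      _ = y * h := by rw [e, one_mul]
  by_cases h1 : ∀ y ∈ M, h * y = y * h
  swap
  · push Not at h1
    obtain ⟨y, hy, hne⟩ := h1
    exact ⟨y, hMN hy, M.mul_mem (hM.conj_mem y hy h) (M.inv_mem hy), hne1 y hne⟩
  by_cases h2 : ∀ y ∈ psGT1U N M, h * y = y * h
  swap
  · push Not at h2
    obtain ⟨y, ⟨hy1, hy2, hy3⟩, hne⟩ := h2
    refine ⟨y, hy1, ?_, hne1 y hne⟩
    have e : h * y * h⁻¹ * y⁻¹ = (y * h * y⁻¹ * h⁻¹)⁻¹ := by group
    rw [e]
    exact M.inv_mem (hy3 h hhN)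
  -- case (2b)
  haveI hUn : (psGT1U N M).Normal := psGT1U_normal N M
  have hMU : M ≤ psGT1U N M := by
    intro x hx
    refine ⟨hMN hx, fun m hm => hMab x hx m hm, fun n hn => ?_⟩
    have e : x * n * x⁻¹ * n⁻¹ = x * (n * x⁻¹ * n⁻¹) := by group
    rw [e]
    exact M.mul_mem hx (hM.conj_mem _ (M.inv_mem hx) n)
  have hUN : psGT1U N M ≤ N := fun x hx => hx.1
  obtain ⟨N1, hN1⟩ : ∃ N1 : Subgroup G, N1 = N ⊓ Subgroup.centralizer (psGT1U N M : Set G) :=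
    ⟨_, rfl⟩
  have hN1n : N1.Normal := by
    rw [hN1]
    infer_instance
  have hN1le : N1 ≤ N := by
    rw [hN1]
    exact inf_le_left
  have hhN1 : h ∈ N1 := by
    rw [hN1]
    refine Subgroup.mem_inf.2 ⟨hhN, ?_⟩
    rw [Subgroup.mem_centralizer_iff]
    intro y hy
    exact (h2 y hy).symm
  have hMN1 : M ≤ N1 := by
    intro m hm
    rw [hN1]
    refine Subgroup.mem_inf.2 ⟨hMN hm, ?_⟩
    rw [Subgroup.mem_centralizer_iff]
    rintro y ⟨-, hy2, -⟩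
    exact hy2 m hm
  have hN1nil : Group.IsNilpotent ↥N1 := by
    obtain ⟨c, hc⟩ := (Subgroup.isNilpotent_iff_lowerCentralSeries N).mp hNnil
    refine (Subgroup.isNilpotent_iff_lowerCentralSeries N1).mpr ⟨c, ?_⟩
    have hmono := Subgroup.lowerCentralSeries_mono c hN1le
    rw [eq_bot_iff, ← hc]
    exact hmono
  have hlt : Nat.card N1 < k := by
    rw [← hk]
    by_contra hge
    push Not at hge
    have hEq : N1 = N := Subgroup.eq_of_le_of_card_ge hN1le hge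
    have hcent : ∀ a ∈ N, ∀ b ∈ psGT1U N M, b * a = a * b := by
      intro a ha b hb
      have ha' : a ∈ N1 := by rw [hEq]; exact ha
      rw [hN1] at ha'
      have := (Subgroup.mem_inf.1 ha').2
      rw [Subgroup.mem_centralizer_iff] at this
      exact this b hb
    have hUab : ∀ a ∈ psGT1U N M, ∀ b ∈ psGT1U N M, a * b = b * a :=
      fun a ha b hb => (hcent a (hUN ha) b hb).symm
    have hUM : psGT1U N M = M := hmax _ hUn hMU hUN hUab
    obtain ⟨x, hx1, hx2, hx3, hx4⟩ := psGT1_chain N M hNnil h hhN h1 hhM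
    apply hx3
    rw [← hUM]
    exact ⟨hx1, hx2, hx4⟩
  obtain ⟨y, hy, hy1, hy2⟩ := ih (Nat.card N1) hlt N1 rfl hN1n hN1nil hMN1
    (fun B hB hMB hBN1 hBab => hmax B hB hMB (le_trans hBN1 hN1le) hBab) h hhN1 hhM
  exact ⟨y, hN1le hy, hy1, hy2⟩

/-- PIECE GT1 -/
theorem exists_comm_mem_of_maximal_abelian {G : Type*} [Group G] [Finite G]
    (N M : Subgroup G) [N.Normal] [M.Normal] (hN : Group.IsNilpotent ↥N) (hMN : M ≤ N)
    (hMab : ∀ a ∈ M, ∀ b ∈ M, a * b = b * a)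
    (hmax : ∀ B : Subgroup G, B.Normal → M ≤ B → B ≤ N → (∀ a ∈ B, ∀ b ∈ B, a * b = b * a) → B = M)
    (h : G) (hhN : h ∈ N) (hhM : h ∉ M) :
    ∃ y ∈ N, h * y * h⁻¹ * y⁻¹ ∈ M ∧ h * y * h⁻¹ * y⁻¹ ≠ 1 :=
  psGT1_aux M hMab _ N rfl inferInstance hN hMN hmax h hhN hhM

end Cfsg.Agent.Lib.Helper73
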