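import Mathlib
import Cfsg.Prelude.Def_RootSubgroups
import Cfsg.Agent.Lib.Helper12.RootInv
import Cfsg.Agent.Lib.Helper20.RI1

/-! S5048 piece RS-COMM (helper42's project; root involutions). -/

set_option autoImplicit false

namespace Cfsg.Agent.Lib.Helper73.RS

open Cfsg Cfsg.Agent.Lib.Helper12.RootInv Cfsg.Agent.Lib.Helper20.RI

variable {G : Type*} [Group G]

/-- an element with an odd power and the square equal to one is trivial -/
theorem rs_eq_one_of_odd_sq {H : Type*} [Group H] (w : H) (j : ℕ) (h1 : w ^ (2 * j + 1) = 1)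
    (h2 : w ^ 2 = 1) : w = 1 := by
  rw [pow_succ, pow_mul, h2, one_pow, one_mul] at h1
  exact h1

/-- PIECE RS-COMM: members of `D` in the same coset of a normal subgroup missing `D` commute. -/
theorem comm_of_mul_mem {D : Set G} (hD : IsRootInvolutionSet D)
    (hpart : ∀ f ∈ D, ∃ b ∈ D, b * f = f * b ∧ b * f ∈ D)
    (N : Subgroup G) [N.Normal] (hDN : ∀ d ∈ D, d ∉ N) {f₁ f₂ : G} (h₁ : f₁ ∈ D) (h₂ : f₂ ∈ D)
    (hN : f₁ * f₂ ∈ N) : f₁ * f₂ = f₂ * f₁ := by
  rcases hD.pair f₁ h₁ f₂ h₂ with hcomm | hodd | ⟨h4, hsqD⟩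
  · exact hcomm
  · by_cases hne : f₁ = f₂
    · rw [hne]
    · obtain ⟨b, hb, hbf, hbfD⟩ := hpart f₁ h₁
      have hπ12 : (QuotientGroup.mk' N) (f₁ * f₂) = 1 := (QuotientGroup.eq_one_iff _).2 hN
      have hπf1 : (QuotientGroup.mk' N) f₁ * (QuotientGroup.mk' N) f₁ = 1 := by
        rw [← map_mul, ri_sq hD h₁, map_one]
      have hπeq : (QuotientGroup.mk' N) f₂ = (QuotientGroup.mk' N) f₁ := by
        rw [map_mul] at hπ12
        exact mul_left_cancel (hπ12.trans hπf1.symm)
      by_cases hbf2 : Odd (orderOf (b * f₂))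
      · exfalso
        obtain ⟨j, hj⟩ := hbf2
        apply hDN (b * f₁) hbfD
        have e1 : (QuotientGroup.mk' N) (b * f₁) = (QuotientGroup.mk' N) (b * f₂) := by
          rw [map_mul, map_mul, hπeq]
        have e2 : ((QuotientGroup.mk' N) (b * f₁)) ^ (2 * j + 1) = 1 := by
          rw [e1, ← map_pow, ← hj, pow_orderOf_eq_one, map_one]
        have e3 : ((QuotientGroup.mk' N) (b * f₁)) ^ 2 = 1 := by
          rw [← map_pow, pow_two, ri_sq hD hbfD, map_one]
        exact (QuotientGroup.eq_one_iff _).1 (rs_eq_one_of_odd_sq _ j e2 e3)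
      · exfalso
        have hk := key_lemma hD hb h₁ h₂ hbf hbfD hodd hne hbf2
        obtain ⟨j, hj⟩ := hk.2.2.2
        apply hDN b hb
        have e1 : (QuotientGroup.mk' N) (b * f₁ * f₂) = (QuotientGroup.mk' N) b := by
          rw [mul_assoc, map_mul, hπ12, mul_one]
        have e2 : ((QuotientGroup.mk' N) b) ^ (2 * j + 1) = 1 := by
          rw [← e1, ← map_pow, ← hj, pow_orderOf_eq_one, map_one]
        have e3 : ((QuotientGroup.mk' N) b) ^ 2 = 1 := by
          rw [← map_pow, pow_two, ri_sq hD hb, map_one]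
        exact (QuotientGroup.eq_one_iff _).1 (rs_eq_one_of_odd_sq _ j e2 e3)
  · exfalso
    exact hDN _ hsqD (Subgroup.pow_mem N hN 2)

end Cfsg.Agent.Lib.Helper73.RS
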