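import Mathlib
import Cfsg.Prelude.Def_RootSubgroups
import Cfsg.Agent.Lib.Helper12.RootInv
import Cfsg.Agent.Lib.Helper20.RI1
import Cfsg.Agent.Lib.Helper20.RI6
import Cfsg.Agent.Lib.Helper42.RTDefs

/-! S5047 piece EXX (helper42's project; root involutions). -/

set_option autoImplicit false

namespace Cfsg.Agent.Lib.Helper73.RT

open Cfsg Cfsg.Agent.Lib.Helper12.RootInv Cfsg.Agent.Lib.Helper20.RI

variable {G : Type*} [Group G]

/-- PIECE EXX. -/
theorem exists_odd_four [Finite G] {D : Set G} (hD : IsRootInvolutionSet D)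
    (hc : IsConnectedSet (OddAdj D) D) {a b : G} (ha : a ∈ D) (hb : b ∈ D)
    (hab : a * b = b * a) (habD : a * b ∈ D)
    (hne : commutingMembers D a ≠ commutingMembers D b) :
    ∃ x ∈ D, x ≠ a ∧ Odd (orderOf (a * x)) ∧ orderOf (b * x) = 4 := by
  have hconj := conj_class hD hc
  have hAne : oddPartners D a ≠ oddPartners D b := fun e =>
    hne ((comm_eq_iff_odd_eq hD hc ha hb).mpr e)
  obtain ⟨x, hxa, hxb⟩ : ∃ x, x ∈ oddPartners D a ∧ x ∉ oddPartners D b := by
    by_contra hn
    push Not at hn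
    exact hAne (Set.eq_of_subset_of_ncard_le hn (le_of_eq (ncard_oddPartners_eq hD hconj hb ha))
      (Set.toFinite _))
  obtain ⟨hxD, hxne, hxodd⟩ := hxa
  have hxb' : x ≠ b := by
    intro e
    rw [e] at hxodd
    have := eq_of_comm_odd hD ha hb hab hxodd
    exact hxne (e.trans this.symm)
  have hbx : ¬ Odd (orderOf (b * x)) := fun ho => hxb ⟨hxD, hxb', ho⟩
  have hcomm : b * x ≠ x * b := by
    intro e
    have := l2 hD (ri_sq hD hb) (ri_ne_one hD hb) hab habD hxD e.symm hxodd
    exact hxne this.symm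
  exact ⟨x, hxD, hxne, hxodd, (four_of_not hD hb hxD hcomm hbx).1⟩

end Cfsg.Agent.Lib.Helper73.RT
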