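import Mathlib
import Cfsg.Agent.Lib.Helper72.S3Defs

/-!
Piece LIFT1 for S4305: coprime lifting of fixed points for one automorphism of prime order.
-/

set_option autoImplicit false

namespace Cfsg.Agent.Lib.Helper73.S3F

open Cfsg.Agent.Lib.Helper72.S3F

universe u

theorem lift1 : Lift1Stmt.{u} := by
  intro Γ _ φ p K g hp hφ hfin hcop hinv hg
  classical
  haveI : Fact p.Prime := ⟨hp⟩
  haveI := hfin
  haveI : Fintype K := Fintype.ofFinite K
  have hmem : ∀ k : K, g⁻¹ * φ (g * k) ∈ K := by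
    intro k
    have h1 : g⁻¹ * φ (g * k) = (g⁻¹ * φ g) * φ k := by rw [map_mul, mul_assoc]
    rw [h1]
    exact K.mul_mem hg (hinv k k.2)
  let F : Function.End K := fun k => ⟨g⁻¹ * φ (g * k), hmem k⟩
  have hF1 : ∀ k : K, ((F k : K) : Γ) = g⁻¹ * φ (g * k) := fun k => rfl
  have hiter : ∀ (n : ℕ) (k : K), (((F ^ n) k : K) : Γ) = g⁻¹ * (φ ^ n) (g * k) := by
    intro n
    induction n with
    | zero =>
      intro k
      rw [pow_zero, pow_zero]
      show ((k : K) : Γ) = g⁻¹ * (g * k)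
      rw [inv_mul_cancel_left]
    | succ n ih =>
      intro k
      have h1 : (F ^ (n + 1)) k = F ((F ^ n) k) := by
        rw [pow_succ']
        rfl
      rw [h1, hF1, ih, mul_inv_cancel_left, pow_succ', MulAut.mul_apply]
  have hF : F ^ p ^ 1 = 1 := by
    funext k
    apply Subtype.ext
    rw [hiter, pow_one, hφ]
    show g⁻¹ * (g * (k : Γ)) = k
    rw [inv_mul_cancel_left]
  have h := Equiv.Perm.card_fixedPoints_modEq (f := F) (p := p) (n := 1) hF
  have hne : Nonempty (Function.fixedPoints F) := by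
    by_contra hempty
    rw [not_nonempty_iff] at hempty
    have h0 : Fintype.card (Function.fixedPoints F) = 0 := Fintype.card_eq_zero
    rw [h0] at h
    have hdvd : p ∣ Fintype.card K := (Nat.modEq_zero_iff_dvd).mp h
    rw [← Nat.card_eq_fintype_card] at hdvd
    exact hp.one_lt.ne' (Nat.Coprime.eq_one_of_dvd hcop.symm hdvd)
  obtain ⟨⟨k, hk⟩⟩ := hne
  refine ⟨k, k.2, ?_⟩
  have h2 : ((F k : K) : Γ) = k := congrArg Subtype.val hk
  rw [hF1] at h2
  exact inv_mul_eq_iff_eq_mul.mp h2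

end Cfsg.Agent.Lib.Helper73.S3F
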