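import Cfsg.Agent.Lib.Helper96.SpTI

/-!
# S5955 piece R2-A (job board, poster helper96)

An isometry `T` of a nondegenerate alternating space with `T * T = 1` (characteristic `≠ 2`)
leaves invariant a totally isotropic subspace of every dimension `m` with `2 m ≤ dim V`.
-/

set_option autoImplicit false

namespace Cfsg.Agent.Lib.Helper73.SpR2A

open Module Cfsg.Agent.Lib.Helper96.Sp

/-- R2-A. -/
theorem exists_ti_inv_of_sq_one {F : Type*} [Field F] {V : Type*} [AddCommGroup V] [Module F V]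
    [FiniteDimensional F V] {B : LinearMap.BilinForm F V} (hA : B.IsAlt) (hN : ND B ⊤)
    (h2 : (2 : F) ≠ 0) (T : Module.End F V) (hT : Isom B T) (hsq : T * T = 1)
    (m : ℕ) (hm : 2 * m ≤ finrank F V) :
    ∃ W : Submodule F V, W.map T ≤ W ∧ Orth B W W ∧ finrank F W = m := by
  have hTT : ∀ v, T (T v) = v := fun v => by
    have h := congrArg (fun f : Module.End F V => f v) hsq
    simpa [Module.End.mul_apply] using h
  obtain ⟨Vp, hVp⟩ : ∃ Vp : Submodule F V, Vp = LinearMap.ker (T - 1) := ⟨_, rfl⟩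
  obtain ⟨Vm, hVm⟩ : ∃ Vm : Submodule F V, Vm = LinearMap.ker (T + 1) := ⟨_, rfl⟩
  have hmp : ∀ u, u ∈ Vp ↔ T u = u := by
    intro u
    rw [hVp, LinearMap.mem_ker, LinearMap.sub_apply, Module.End.one_apply, sub_eq_zero]
  have hmm : ∀ u, u ∈ Vm ↔ T u = -u := by
    intro u
    rw [hVm, LinearMap.mem_ker, LinearMap.add_apply, Module.End.one_apply,
      add_eq_zero_iff_eq_neg]
  have horth : Orth B Vp Vm := by
    intro u hu v hv
    have h1 := hT u v
    rw [(hmp u).1 hu, (hmm v).1 hv, map_neg] at h1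
    have h3 : (2 : F) * B u v = 0 := by linear_combination -h1
    exact (mul_eq_zero.1 h3).resolve_left h2
  have hsup : Vp ⊔ Vm = ⊤ := by
    rw [eq_top_iff]
    intro v _
    have e : v = (2 : F)⁻¹ • (v + T v) + (2 : F)⁻¹ • (v - T v) := by
      rw [← smul_add]
      have e1 : v + T v + (v - T v) = (2 : F) • v := by
        rw [two_smul]
        abel
      rw [e1, smul_smul, inv_mul_cancel₀ h2, one_smul]
    rw [e]
    apply Submodule.add_mem_sup
    · apply Submodule.smul_mem
      rw [hmp, map_add, hTT]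
      abel
    · apply Submodule.smul_mem
      rw [hmm, map_sub, hTT]
      abel
  have hNp : ND B Vp := nd_of_orth_sup hN horth hsup
  have hNm : ND B Vm := nd_of_orth_sup hN (orth_symm hA horth) (by rw [sup_comm]; exact hsup)
  have hfr := (nd_sup hA hNp hNm horth).2
  rw [hsup, finrank_top] at hfr
  obtain ⟨a, ha⟩ := even_finrank_of_nd hA Vp hNp
  obtain ⟨b, hb⟩ := even_finrank_of_nd hA Vm hNm
  obtain ⟨Up, hUpV, hUp, hUpw⟩ := exists_ti_sub hA hN Vp hNp (min m a) (by rw [ha]; omega)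
  obtain ⟨Um, hUmV, hUm, hUmw⟩ := exists_ti_sub hA hN Vm hNm (m - min m a) (by rw [hb]; omega)
  refine ⟨Up ⊔ Um, ?_, ti_sup hA hUp hUm (orth_mono horth hUpV hUmV), ?_⟩
  · rw [Submodule.map_sup]
    apply sup_le_sup
    · rintro _ ⟨u, hu, rfl⟩
      rw [(hmp u).1 (hUpV hu)]
      exact hu
    · rintro _ ⟨u, hu, rfl⟩
      rw [(hmm u).1 (hUmV hu)]
      exact Um.neg_mem hu
  · have h4 := Submodule.finrank_sup_add_finrank_inf_eq Up Um
    have h5 : Up ⊓ Um = ⊥ := by
      rw [eq_bot_iff]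
      rintro u ⟨hu1, hu2⟩
      rw [Submodule.mem_bot]
      have e1 := (hmp u).1 (hUpV hu1)
      have e2 := (hmm u).1 (hUmV hu2)
      have e3 : (2 : F) • u = 0 := by
        rw [two_smul]
        nth_rewrite 2 [← e1]
        rw [e2]
        abel
      exact (smul_eq_zero.1 e3).resolve_left h2
    rw [h5, finrank_bot, hUpw, hUmw] at h4
    omega

end Cfsg.Agent.Lib.Helper73.SpR2A
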