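import Mathlib
import Cfsg.Agent.Lib.Helper91.SuU

/-! EA1 (job board piece for S5172, poster helper91): the standard unipotent subgroup `U` of the
even-dimensional unitary group `GU l K σ`, `char K = p`, is a `p`-group. -/

set_option maxHeartbeats 400000
set_option autoImplicit false

namespace Cfsg.Agent.Lib.Helper73.SuEA1

open Matrix Cfsg.Agent.Lib.Helper91.SpU Cfsg.Agent.Lib.Helper91.SuU

/-- An upper unitriangular matrix `A` has `(A - 1) ^ m = 0`. -/
theorem ut_sub_one_pow (m : ℕ) (K : Type*) [Field K] (A : Matrix (Fin m) (Fin m) K)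
    (hA : IsUT m K A) : (A - 1) ^ m = 0 := by
  have hup : A.IsUpperTriangular := fun i j hij => hA.1 i j hij
  have hcp : A.charpoly = (Polynomial.X - Polynomial.C (1 : K)) ^ m := by
    rw [Matrix.charpoly_of_isUpperTriangular A hup,
      Finset.prod_congr rfl (fun i _ => by rw [hA.2 i]), Finset.prod_const, Finset.card_univ,
      Fintype.card_fin]
  have h := Matrix.aeval_self_charpoly A
  rw [hcp] at h
  simpa using h

/-- Powers of block upper triangular matrices. -/
theorem block_pow {n : Type*} [Fintype n] [DecidableEq n] {R : Type*} [CommRing R]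
    (A B D : Matrix n n R) (k : ℕ) :
    ∃ X : Matrix n n R, (fromBlocks A B 0 D) ^ k = fromBlocks (A ^ k) X 0 (D ^ k) := by
  induction k with
  | zero => exact ⟨0, by rw [pow_zero, pow_zero, pow_zero, fromBlocks_one]⟩
  | succ k ih =>
    obtain ⟨X, hX⟩ := ih
    refine ⟨A ^ k * B + X * D, ?_⟩
    rw [pow_succ, hX, fromBlocks_multiply]
    simp [pow_succ]

theorem U_isPGroup (l : ℕ) (K : Type*) [Field K] (σ : K →+* K) (hσ : ∀ x, σ (σ x) = x)
    (p : ℕ) [Fact p.Prime] [CharP K p]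
    (U : Subgroup (GU l K σ)) (hU : ∀ g, g ∈ U ↔ InU l K σ g) : IsPGroup p U := by
  intro g
  obtain ⟨h21, hA⟩ := (hU g.1).mp g.2
  have key : (mat l K σ g.1) ^ p ^ (2 * l) = 1 := by
    rcases Nat.eq_zero_or_pos l with hm | hm
    · subst hm
      exact Subsingleton.elim _ _
    haveI : Nonempty (Fin l ⊕ Fin l) := ⟨Sum.inl ⟨0, hm⟩⟩
    obtain ⟨A, hAdef⟩ : ∃ A, A = (mat l K σ g.1).toBlocks₁₁ := ⟨_, rfl⟩
    obtain ⟨B, hBdef⟩ : ∃ B, B = (mat l K σ g.1).toBlocks₁₂ := ⟨_, rfl⟩
    obtain ⟨D, hDdef⟩ : ∃ D, D = (mat l K σ g.1).toBlocks₂₂ := ⟨_, rfl⟩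
    have hblk : mat l K σ g.1 = fromBlocks A B 0 D := by
      rw [hAdef, hBdef, hDdef, ← h21]
      exact (fromBlocks_toBlocks (mat l K σ g.1)).symm
    have hmem := mat_mem l K σ g.1
    rw [hblk, Matrix.fromBlocks_transpose, Matrix.fromBlocks_map, JJ, Matrix.fromBlocks_multiply,
      Matrix.fromBlocks_multiply] at hmem
    have hDA : Dᵀ * A.map σ = 1 := by
      have h3 := congrArg Matrix.toBlocks₂₁ hmem
      simpa [Matrix.toBlocks_fromBlocks₂₁] using h3
    have hA' : IsUT l K (A.map σ) := by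
      have hA0 : IsUT l K A := hAdef ▸ hA
      exact ⟨fun i j h => by rw [Matrix.map_apply, hA0.1 i j h, map_zero],
        fun i => by rw [Matrix.map_apply, hA0.2 i, map_one]⟩
    have hAn : (A - 1) ^ l = 0 := ut_sub_one_pow l K A (hAdef ▸ hA)
    have hAn' : (A.map σ - 1) ^ l = 0 := ut_sub_one_pow l K (A.map σ) hA'
    have hDn : (D - 1) ^ l = 0 := by
      have e : Dᵀ - 1 = Dᵀ * (1 - A.map σ) := by rw [mul_sub, mul_one, hDA]
      have hAD' : A.map σ * Dᵀ = 1 := mul_eq_one_comm.mp hDA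
      have hc : Commute Dᵀ (1 - A.map σ) := by
        show Dᵀ * (1 - A.map σ) = (1 - A.map σ) * Dᵀ
        rw [mul_sub, sub_mul, mul_one, one_mul, hDA, hAD']
      have h1 : (Dᵀ - 1) ^ l = 0 := by
        rw [e, hc.mul_pow]
        have h0 : (1 - A.map σ) ^ l = 0 := by
          have e2 : (1 - A.map σ) = -(A.map σ - 1) := by abel
          rw [e2, neg_pow, hAn', mul_zero]
        rw [h0, mul_zero]
      have h2 : ((D - 1) ^ l)ᵀ = 0 := by
        rw [transpose_pow, transpose_sub, transpose_one, h1]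
      exact transpose_eq_zero.mp h2
    obtain ⟨X, hX⟩ := block_pow (A - 1) B (D - 1) l
    have hN : mat l K σ g.1 - 1 = fromBlocks (A - 1) B 0 (D - 1) := by
      rw [hblk, ← fromBlocks_one, sub_eq_add_neg, fromBlocks_neg, fromBlocks_add]
      simp [sub_eq_add_neg]
    have hN2 : (mat l K σ g.1 - 1) ^ (2 * l) = 0 := by
      rw [two_mul, pow_add, hN, hX, hAn, hDn, fromBlocks_multiply]
      simp
    have hNp : (mat l K σ g.1 - 1) ^ p ^ (2 * l) = 0 :=
      pow_eq_zero_of_le (le_of_lt (Nat.lt_pow_self (Fact.out : p.Prime).one_lt)) hN2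
    have hsplit : mat l K σ g.1 = (mat l K σ g.1 - 1) + 1 := by abel
    rw [hsplit, add_pow_char_pow_of_commute p (2 * l) (Commute.one_right _), hNp, one_pow,
      zero_add]
  refine ⟨2 * l, ?_⟩
  apply Subtype.ext
  apply mat_ext
  have hpow : ∀ (x : GU l K σ) (n : ℕ), mat l K σ (x ^ n) = (mat l K σ x) ^ n := by
    intro x n
    induction n with
    | zero => rw [pow_zero, pow_zero]; rfl
    | succ n ih => rw [pow_succ, pow_succ, mat_mul, ih]
  rw [Subgroup.coe_pow, hpow, key]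
  rfl

end Cfsg.Agent.Lib.Helper73.SuEA1
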