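import Cfsg.Agent.S5351
import Cfsg.Agent.Lib.Helper11.TT56Def
import Cfsg.Agent.Lib.Helper31.Basic

/-!
# S5356, piece CNT: a counting argument
-/

set_option autoImplicit false
open Cfsg

namespace Cfsg.Agent.Lib.Helper73.TT56

theorem tt56_core_le {G : Type*} [Group G] [Finite G] {d : G} (hd2 : d * d = 1)
    (hdQ : d ∉ pCore 2 G) (Q₀ H : Subgroup G) [Q₀.Normal] [H.Normal] (hQ₀H : Q₀ ≤ H)
    (hQ₀ : Q₀ ≤ pCore 2 G) (hcov : ∀ g : G, g ∈ H ∨ d * g ∈ H) (k : ℕ)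
    (hk : Nat.card H = 3 ^ k * Nat.card Q₀) : pCore 2 G ≤ Q₀ := by
  classical
  haveI : Fact (Nat.Prime 2) := ⟨Nat.prime_two⟩
  have hQn : (pCore 2 G).Normal := Cfsg.Agent.S5351.pCore_nrm 2
  have hQ2 : IsPGroup 2 ↥(pCore 2 G) := Cfsg.Agent.Lib.Helper31.pCore_isPGroup 2
  -- Step 1: `Q ⊓ H = Q₀`
  have h1 : pCore 2 G ⊓ H = Q₀ := by
    symm
    apply Subgroup.eq_of_le_of_card_ge (le_inf hQ₀ hQ₀H)
    have hb : IsPGroup 2 ↥(pCore 2 G ⊓ H) := hQ2.to_le inf_le_left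
    have ha : IsPGroup 2 ↥Q₀ := hQ2.to_le hQ₀
    obtain ⟨b, hb'⟩ := (IsPGroup.iff_card).1 hb
    obtain ⟨a, ha'⟩ := (IsPGroup.iff_card).1 ha
    have hdvd : Nat.card ↥(pCore 2 G ⊓ H) ∣ Nat.card ↥H := Subgroup.card_dvd_of_le inf_le_right
    rw [hk, hb', ha'] at hdvd
    have hcop : Nat.Coprime (2 ^ b) (3 ^ k) := Nat.Coprime.pow b k (by norm_num)
    have := hcop.dvd_of_dvd_mul_left hdvd
    rw [hb', ha']
    exact Nat.le_of_dvd (by positivity) this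
  -- the relative index
  have hrel : Q₀.relIndex H = 3 ^ k := by
    have h := Subgroup.relIndex_mul_relIndex ⊥ Q₀ H bot_le hQ₀H
    rw [Subgroup.relIndex_bot_left, Subgroup.relIndex_bot_left, hk] at h
    have hpos : 0 < Nat.card ↥Q₀ := Nat.card_pos
    have : Nat.card ↥Q₀ * Q₀.relIndex H = Nat.card ↥Q₀ * 3 ^ k := by rw [h, mul_comm]
    exact Nat.eq_of_mul_eq_mul_left hpos this
  -- Step 2
  have h2 : ∀ x ∈ H, x * x ∈ Q₀ → x ∈ Q₀ := by
    intro x hx hxx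
    haveI : (Q₀.subgroupOf H).Normal := Subgroup.normal_subgroupOf
    have hp := Subgroup.pow_index_mem (Q₀.subgroupOf H) (⟨x, hx⟩ : ↥H)
    have hp' : x ^ 3 ^ k ∈ Q₀ := by
      have : (Q₀.subgroupOf H).index = 3 ^ k := hrel
      rw [this] at hp
      have := Subgroup.mem_subgroupOf.1 hp
      simpa using this
    have hodd : Odd (3 ^ k) := Odd.pow (by decide)
    obtain ⟨m, hm⟩ := hodd
    have hx2 : (x * x) ^ m ∈ Q₀ := Subgroup.pow_mem _ hxx m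
    have e : x = x ^ 3 ^ k * ((x * x) ^ m)⁻¹ := by
      rw [hm, ← pow_two, ← pow_mul, pow_succ, mul_assoc]
      have : x * (x ^ (2 * m))⁻¹ = (x ^ (2 * m))⁻¹ * x := by
        rw [← Commute.eq (Commute.inv_left (Commute.pow_left (Commute.refl x) _))]
      rw [this, ← mul_assoc, mul_inv_cancel, one_mul]
    rw [e]
    exact Subgroup.mul_mem _ hp' (Subgroup.inv_mem _ hx2)
  -- Step 3
  intro q hq
  rcases hcov q with hqH | hdq
  · rw [← h1]; exact ⟨hq, hqH⟩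
  · exfalso
    have hdi : d⁻¹ = d := inv_eq_of_mul_eq_one_left hd2
    have hsq : (d * q) * (d * q) ∈ pCore 2 G := by
      have e : (d * q) * (d * q) = (d * q * d⁻¹) * q := by rw [hdi]; group
      rw [e]
      exact Subgroup.mul_mem _ (hQn.conj_mem q hq d) hq
    have hsq' : (d * q) * (d * q) ∈ Q₀ := by
      rw [← h1]; exact ⟨hsq, Subgroup.mul_mem _ hdq hdq⟩
    have h3 := hQ₀ (h2 _ hdq hsq')
    apply hdQ
    have e : d = (d * q) * q⁻¹ := by group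
    rw [e]
    exact Subgroup.mul_mem _ h3 (Subgroup.inv_mem _ hq)

end Cfsg.Agent.Lib.Helper73.TT56
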