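import Mathlib

set_option autoImplicit false

/-!
Metacyclic presentations: a finite group generated by `x, y` with `x^n = 1`, `y^m = 1`,
`x⁻¹ y x = y^r` and at least `n * m` elements is presented by these relations.
-/

namespace Cfsg.Agent.Lib.Helper73.ZP

/-- the metacyclic relators -/
abbrev mrels (n m r : ℕ) : Set (FreeGroup (Fin 2)) :=
  {FreeGroup.of (0 : Fin 2) ^ n, FreeGroup.of (1 : Fin 2) ^ m,
    (FreeGroup.of (0 : Fin 2))⁻¹ * FreeGroup.of 1 * FreeGroup.of 0 *
      (FreeGroup.of (1 : Fin 2) ^ r)⁻¹}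

theorem pres_rel_a (n m r : ℕ) :
    (PresentedGroup.of (0 : Fin 2) : PresentedGroup (mrels n m r)) ^ n = 1 := by
  have h : PresentedGroup.mk (mrels n m r) (FreeGroup.of (0 : Fin 2) ^ n) = 1 :=
    PresentedGroup.one_of_mem (Set.mem_insert _ _)
  rw [map_pow] at h
  exact h

theorem pres_rel_b (n m r : ℕ) :
    (PresentedGroup.of (1 : Fin 2) : PresentedGroup (mrels n m r)) ^ m = 1 := by
  have h : PresentedGroup.mk (mrels n m r) (FreeGroup.of (1 : Fin 2) ^ m) = 1 :=
    PresentedGroup.one_of_mem (Set.mem_insert_of_mem _ (Set.mem_insert _ _))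
  rw [map_pow] at h
  exact h

theorem pres_rel_c (n m r : ℕ) :
    (PresentedGroup.of (1 : Fin 2) : PresentedGroup (mrels n m r)) * PresentedGroup.of 0 =
      PresentedGroup.of 0 * PresentedGroup.of 1 ^ r := by
  have h : PresentedGroup.mk (mrels n m r) ((FreeGroup.of (0 : Fin 2))⁻¹ * FreeGroup.of 1 *
      FreeGroup.of 0 * (FreeGroup.of (1 : Fin 2) ^ r)⁻¹) = 1 :=
    PresentedGroup.one_of_mem
      (Set.mem_insert_of_mem _ (Set.mem_insert_of_mem _ (Set.mem_singleton _)))
  rw [map_mul, map_mul, map_mul, map_inv, map_inv, map_pow] at h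
  change (PresentedGroup.of 0)⁻¹ * PresentedGroup.of 1 * PresentedGroup.of 0 *
    (PresentedGroup.of 1 ^ r)⁻¹ = 1 at h
  have h2 := mul_inv_eq_one.mp h
  rw [← h2]
  group

theorem comm_pow {Γ : Type*} [Group Γ] {a b : Γ} {r : ℕ} (h : b * a = a * b ^ r) (k : ℕ) :
    b ^ k * a = a * b ^ (r * k) := by
  induction k with
  | zero => simp
  | succ k ih =>
    rw [pow_succ, mul_assoc, h, ← mul_assoc, ih, mul_assoc, ← pow_add]
    congr 2

theorem comm_pow_pow {Γ : Type*} [Group Γ] {a b : Γ} {r : ℕ} (h : b * a = a * b ^ r)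
    (k i : ℕ) : b ^ k * a ^ i = a ^ i * b ^ (k * r ^ i) := by
  induction i generalizing k with
  | zero => simp
  | succ i ih =>
    rw [pow_succ, ← mul_assoc, ih, mul_assoc, comm_pow h, ← mul_assoc]
    congr 2
    ring

theorem normal_form {Γ : Type*} [Group Γ] {a b : Γ} {n m r : ℕ} (hn : 0 < n) (hm : 0 < m)
    (ha : a ^ n = 1) (hb : b ^ m = 1) (h : b * a = a * b ^ r)
    (hgen : Subgroup.closure {a, b} = ⊤) (g : Γ) :
    ∃ i j : ℕ, i < n ∧ j < m ∧ g = a ^ i * b ^ j := by
  have hainv : a⁻¹ = a ^ (n - 1) := by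
    apply inv_eq_of_mul_eq_one_left
    rw [← pow_succ, Nat.sub_add_cancel hn, ha]
  have hbinv : b⁻¹ = b ^ (m - 1) := by
    apply inv_eq_of_mul_eq_one_left
    rw [← pow_succ, Nat.sub_add_cancel hm, hb]
  have key : ∀ g : Γ, ∃ i j : ℕ, g = a ^ i * b ^ j := by
    intro g
    have hg : g ∈ Subgroup.closure {a, b} := by rw [hgen]; trivial
    induction hg using Subgroup.closure_induction_left with
    | one => exact ⟨0, 0, by simp⟩
    | mul_left x hx y hy ih =>
      obtain ⟨i, j, rfl⟩ := ih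
      rcases hx with rfl | hx
      · exact ⟨i + 1, j, by rw [pow_succ', mul_assoc]⟩
      · rw [Set.mem_singleton_iff] at hx
        subst hx
        refine ⟨i, 1 * r ^ i + j, ?_⟩
        rw [← mul_assoc, pow_add, ← mul_assoc, ← comm_pow_pow h 1 i, pow_one]
    | inv_mul_cancel x hx y hy ih =>
      obtain ⟨i, j, rfl⟩ := ih
      rcases hx with rfl | hx
      · exact ⟨n - 1 + i, j, by rw [hainv, pow_add, mul_assoc]⟩
      · rw [Set.mem_singleton_iff] at hx
        subst hx
        refine ⟨i, (m - 1) * r ^ i + j, ?_⟩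
        rw [hbinv, ← mul_assoc, pow_add, ← mul_assoc, ← comm_pow_pow h (m - 1) i]
  obtain ⟨i, j, rfl⟩ := key g
  exact ⟨i % n, j % m, Nat.mod_lt _ hn, Nat.mod_lt _ hm, by
    rw [← pow_eq_pow_mod _ ha, ← pow_eq_pow_mod _ hb]⟩

theorem card_le {Γ : Type*} [Group Γ] {a b : Γ} {n m r : ℕ} (hn : 0 < n) (hm : 0 < m)
    (ha : a ^ n = 1) (hb : b ^ m = 1) (h : b * a = a * b ^ r)
    (hgen : Subgroup.closure {a, b} = ⊤) : Finite Γ ∧ Nat.card Γ ≤ n * m := by
  have hsurj : Function.Surjective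
      (fun p : Fin n × Fin m => a ^ (p.1 : ℕ) * b ^ (p.2 : ℕ)) := by
    intro g
    obtain ⟨i, j, hi, hj, rfl⟩ := normal_form hn hm ha hb h hgen g
    exact ⟨(⟨i, hi⟩, ⟨j, hj⟩), rfl⟩
  haveI : Finite Γ := Finite.of_surjective _ hsurj
  refine ⟨this, ?_⟩
  have h2 := Nat.card_le_card_of_surjective _ hsurj
  rw [Nat.card_prod, Nat.card_fin, Nat.card_fin] at h2
  exact h2

/-- a finite group generated by `x, y` with the metacyclic relations and at least `n * m` elements
is presented by these relations -/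
theorem pres_equiv {N : Type*} [Group N] [Finite N] (x y : N) (n m r : ℕ) (hn : 0 < n)
    (hm : 0 < m) (hx : x ^ n = 1) (hy : y ^ m = 1) (hr : x⁻¹ * y * x = y ^ r)
    (hgen : Subgroup.closure {x, y} = ⊤) (hcard : n * m ≤ Nat.card N) :
    Nonempty (N ≃* PresentedGroup (mrels n m r)) := by
  let f : Fin 2 → N := ![x, y]
  have hrel : ∀ w ∈ mrels n m r, FreeGroup.lift f w = 1 := by
    intro w hw
    rcases hw with rfl | rfl | hw
    · simp [f, hx]
    · simp [f, hy]
    · rw [Set.mem_singleton_iff] at hw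
      subst hw
      simp only [map_mul, map_inv, map_pow, FreeGroup.lift_apply_of, f]
      show x⁻¹ * y * x * (y ^ r)⁻¹ = 1
      rw [hr, mul_inv_cancel]
  let φ := PresentedGroup.toGroup hrel
  have hφ0 : φ (PresentedGroup.of 0) = x := by simp [φ, f]
  have hφ1 : φ (PresentedGroup.of 1) = y := by simp [φ, f]
  have hsurj : Function.Surjective φ := by
    rw [← MonoidHom.range_eq_top, eq_top_iff, ← hgen, Subgroup.closure_le]
    rintro _ (rfl | rfl)
    · exact ⟨_, hφ0⟩
    · exact ⟨_, hφ1⟩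
  have hgenP : Subgroup.closure {(PresentedGroup.of 0 : PresentedGroup (mrels n m r)),
      PresentedGroup.of 1} = ⊤ := by
    rw [← PresentedGroup.closure_range_of]
    congr 1
    ext g
    constructor
    · rintro (rfl | rfl)
      exacts [⟨0, rfl⟩, ⟨1, rfl⟩]
    · rintro ⟨i, rfl⟩
      fin_cases i
      exacts [Or.inl rfl, Or.inr rfl]
  obtain ⟨hfin, hle⟩ := card_le hn hm (pres_rel_a n m r) (pres_rel_b n m r) (pres_rel_c n m r)
    hgenP
  have hbij : Function.Bijective φ := hsurj.bijective_of_nat_card_le (hle.trans hcard)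
  exact ⟨(MulEquiv.ofBijective φ hbij).symm⟩

end Cfsg.Agent.Lib.Helper73.ZP
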