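import Mathlib
import Cfsg.Agent.Lib.Helper73.ZP1

set_option autoImplicit false

/-!
Z-groups (all Sylow subgroups cyclic) are metacyclic with a presentation
`⟨x, y | x^n, y^m, x⁻¹ y x = y^r⟩`, `gcd(n, m) = gcd(r - 1, m) = 1`; if moreover the subgroups of
order `p q` are cyclic then `r^(n / rad n) ≡ 1 (mod m)`.
-/

namespace Cfsg.Agent.Lib.Helper73.ZP

theorem nt_geom (s p : ℕ) (hs : 1 ≤ s) :
    (s - 1) * ∑ i ∈ Finset.range p, s ^ i = s ^ p - 1 := by
  have h := geom_sum_mul (s : ℤ) p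
  have h1 : 1 ≤ s ^ p := Nat.one_le_pow _ _ hs
  zify [hs, h1]
  rw [mul_comm]
  exact h

theorem nt {m s p : ℕ} (hs : 1 ≤ s) (hpm : Nat.Coprime p m) (h1 : m ∣ s ^ p - 1)
    (h2 : ∀ q : ℕ, q.Prime → q ∣ m → q ∣ s - 1) : m ∣ s - 1 := by
  rw [← nt_geom s p hs] at h1
  refine Nat.Coprime.dvd_of_dvd_mul_right ?_ h1
  apply Nat.coprime_of_dvd
  intro q hq hqm hqS
  haveI := Fact.mk hq
  have hs1 : ((s : ℕ) : ZMod q) = 1 := by
    have h3 := (ZMod.natCast_eq_zero_iff (s - 1) q).mpr (h2 q hq hqm)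
    rw [Nat.cast_sub hs, Nat.cast_one, sub_eq_zero] at h3
    exact h3
  have hS := (ZMod.natCast_eq_zero_iff _ q).mpr hqS
  rw [Nat.cast_sum] at hS
  simp only [Nat.cast_pow, hs1, one_pow, Finset.sum_const, Finset.card_range, nsmul_eq_mul,
    mul_one] at hS
  have hqp : q ∣ p := (ZMod.natCast_eq_zero_iff p q).mp hS
  have h4 : q ∣ Nat.gcd p m := Nat.dvd_gcd hqp hqm
  rw [hpm] at h4
  exact hq.one_lt.ne' (Nat.dvd_one.mp h4)

theorem zpowers_pow_normal {N : Type*} [Group N] (y : N) (hy : (Subgroup.zpowers y).Normal)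
    (k : ℕ) : (Subgroup.zpowers (y ^ k)).Normal := by
  constructor
  intro a ha g
  obtain ⟨j, rfl⟩ := Subgroup.mem_zpowers_iff.mp ha
  obtain ⟨i, hi⟩ := Subgroup.mem_zpowers_iff.mp (hy.conj_mem y (Subgroup.mem_zpowers y) g)
  have h0 : (y ^ i) ^ k = (y ^ k) ^ i := by
    rw [← zpow_natCast (y ^ i) k, ← zpow_mul, ← zpow_natCast y k, ← zpow_mul, mul_comm]
  have h1 : g * (y ^ k) ^ j * g⁻¹ = ((y ^ k) ^ i) ^ j := by
    rw [← conj_zpow, ← conj_pow, ← hi, h0]
  rw [h1]
  exact Subgroup.zpow_mem _ (Subgroup.zpow_mem _ (Subgroup.mem_zpowers _) _) _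

theorem card_sup_of_normal {N : Type*} [Group N] [Finite N] (H K : Subgroup N) [K.Normal]
    (h : H ⊓ K = ⊥) : Nat.card (H ⊔ K : Subgroup N) = Nat.card H * Nat.card K := by
  have h1 : K.relIndex (H ⊔ K) = Nat.card H := by
    rw [Subgroup.relIndex_sup_right, ← Subgroup.inf_relIndex_left, h, Subgroup.relIndex_bot_left]
  have h2 := Subgroup.relIndex_mul_relIndex ⊥ K (H ⊔ K) bot_le le_sup_right
  rw [Subgroup.relIndex_bot_left, Subgroup.relIndex_bot_left, h1] at h2
  rw [← h2, mul_comm]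

theorem comm_of_closure_pair {Q : Type*} [Group Q] (a b : Q) (hab : a * b = b * a)
    (hgen : Subgroup.closure {a, b} = ⊤) : ∀ g h : Q, g * h = h * g := by
  have key : ∀ c : Q, (c * a = a * c) → (c * b = b * c) → c ∈ Subgroup.center Q := by
    intro c hca hcb
    rw [Subgroup.mem_center_iff]
    intro g
    have hg : g ∈ Subgroup.closure {a, b} := by rw [hgen]; trivial
    induction hg using Subgroup.closure_induction with
    | mem z hz =>
      rcases hz with rfl | hz
      · exact hca.symm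
      · rw [Set.mem_singleton_iff] at hz
        subst hz
        exact hcb.symm
    | one => simp
    | mul u v _ _ hu hv => rw [mul_assoc, hv, ← mul_assoc, hu, mul_assoc]
    | inv u _ hu => exact (Commute.inv_left (show Commute u c from hu)).eq
  have hcen : Subgroup.closure {a, b} ≤ Subgroup.center Q := by
    rw [Subgroup.closure_le]
    rintro _ (rfl | hz)
    · exact key _ rfl hab
    · rw [Set.mem_singleton_iff] at hz
      subst hz
      exact key _ hab.symm rfl
  intro g h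
  have hg : g ∈ Subgroup.center Q := hcen (by rw [hgen]; trivial)
  exact (Subgroup.mem_center_iff.mp hg h).symm

/-- Lemma C: the commutator subgroup is generated by `y` forces `gcd(r - 1, m) = 1` -/
theorem coprime_of_comm {N : Type*} [Group N] [Finite N] (x y : N) (r : ℕ) (hr1 : 1 ≤ r)
    (hr : x⁻¹ * y * x = y ^ r) (hgen : Subgroup.closure {x, y} = ⊤)
    (hY : Subgroup.zpowers y = commutator N) : Nat.Coprime (r - 1) (orderOf y) := by
  have hnorm : (Subgroup.zpowers y).Normal := by rw [hY]; infer_instance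
  haveI hK : (Subgroup.zpowers (y ^ (r - 1))).Normal := zpowers_pow_normal y hnorm (r - 1)
  obtain ⟨K, hKdef⟩ : ∃ K : Subgroup N, K = Subgroup.zpowers (y ^ (r - 1)) := ⟨_, rfl⟩
  haveI : K.Normal := hKdef ▸ hK
  obtain ⟨π, hπdef⟩ : ∃ π : N →* N ⧸ K, π = QuotientGroup.mk' K := ⟨_, rfl⟩
  have hπ : Function.Surjective π := hπdef ▸ QuotientGroup.mk'_surjective K
  have hπ1 : ∀ g : N, π g = 1 ↔ g ∈ K := by
    intro g
    rw [hπdef]
    exact QuotientGroup.eq_one_iff g
  have hcomm : π x * π y = π y * π x := by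
    have h1 : π (y ^ (r - 1)) = 1 := (hπ1 _).mpr (hKdef ▸ Subgroup.mem_zpowers _)
    have h2 : π (x⁻¹ * y * x) = π y := by
      rw [hr]
      have h3 : y ^ r = y ^ (r - 1) * y := by rw [← pow_succ, Nat.sub_add_cancel hr1]
      rw [h3, map_mul, h1, one_mul]
    rw [map_mul, map_mul, map_inv] at h2
    calc π x * π y = π x * ((π x)⁻¹ * π y * π x) := by rw [h2]
      _ = π y * π x := by group
  have hgenQ : Subgroup.closure {π x, π y} = ⊤ := by
    have h1 := congrArg (Subgroup.map π) hgen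
    rw [MonoidHom.map_closure, Subgroup.map_top_of_surjective π hπ, Set.image_pair] at h1
    exact h1
  have hab := comm_of_closure_pair (π x) (π y) hcomm hgenQ
  have hle : commutator N ≤ K := by
    rw [commutator_def, Subgroup.commutator_le]
    intro g₁ _ g₂ _
    rw [← hπ1, map_commutatorElement, commutatorElement_eq_one_iff_commute]
    exact hab _ _
  have hyK : y ∈ K := hle (hY ▸ Subgroup.mem_zpowers y)
  have h1 : Subgroup.zpowers y = Subgroup.zpowers (y ^ (r - 1)) :=
    le_antisymm ((Subgroup.zpowers_le).mpr (hKdef ▸ hyK))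
      ((Subgroup.zpowers_le).mpr (Subgroup.pow_mem _ (Subgroup.mem_zpowers y) _))
  have h2 : orderOf y = orderOf (y ^ (r - 1)) := by
    rw [← Nat.card_zpowers, ← Nat.card_zpowers, h1]
  rw [orderOf_pow] at h2
  have hpos := orderOf_pos y
  have hg : Nat.gcd (orderOf y) (r - 1) = 1 :=
    (Nat.div_eq_self.mp h2.symm).resolve_left hpos.ne'
  exact Nat.Coprime.symm hg

/-- Lemma K: the congruence `r^(n / rad n) ≡ 1 (mod m)` when subgroups of order `p q` are cyclic -/
theorem congr_of_pq {N : Type*} [Group N] [Finite N] (x y : N) (r : ℕ) (hr1 : 1 ≤ r)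
    (hr : x⁻¹ * y * x = y ^ r) (hnorm : (Subgroup.zpowers y).Normal)
    (hcop : Nat.Coprime (orderOf x) (orderOf y))
    (hpq : ∀ (A : Subgroup N) (p q : ℕ), p.Prime → q.Prime → Nat.card A = p * q → IsCyclic A) :
    r ^ (orderOf x / ∏ p ∈ (orderOf x).primeFactors, p) % orderOf y = 1 % orderOf y := by
  obtain ⟨n, hn⟩ : ∃ n : ℕ, n = orderOf x := ⟨_, rfl⟩
  obtain ⟨m, hm⟩ : ∃ m : ℕ, m = orderOf y := ⟨_, rfl⟩
  rw [← hn, ← hm] at hcop ⊢
  have hnpos : 0 < n := hn ▸ orderOf_pos x
  have hmpos : 0 < m := hm ▸ orderOf_pos y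
  have hyx : y * x = x * y ^ r := by rw [← hr]; group
  have hcrit : ∀ i : ℕ, y * x ^ i = x ^ i * y ↔ r ^ i ≡ 1 [MOD m] := by
    intro i
    have h := comm_pow_pow hyx 1 i
    rw [pow_one, one_mul] at h
    rw [h, mul_right_inj, hm, ← pow_eq_pow_iff_modEq, pow_one]
  have hK1 : ∀ p : ℕ, p.Prime → p ∣ n → y * x ^ (n / p) = x ^ (n / p) * y := by
    intro p hp hpn
    obtain ⟨g, hg⟩ : ∃ g : N, g = x ^ (n / p) := ⟨_, rfl⟩
    obtain ⟨s, hs⟩ : ∃ s : ℕ, s = r ^ (n / p) := ⟨_, rfl⟩
    have hs1 : 1 ≤ s := hs ▸ Nat.one_le_pow _ _ hr1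
    have hyg : y * g = g * y ^ s := by
      have h := comm_pow_pow hyx 1 (n / p)
      rw [pow_one, one_mul] at h
      rw [hg, hs]
      exact h
    have hgo : orderOf g = p := by
      rw [hg, orderOf_pow_of_dvd (Nat.div_pos (Nat.le_of_dvd hnpos hpn) hp.pos).ne'
        (hn ▸ Nat.div_dvd_of_dvd hpn), ← hn, Nat.div_div_self hpn hnpos.ne']
    have hgp : g ^ p = 1 := by rw [← hgo]; exact pow_orderOf_eq_one g
    have hpm : Nat.Coprime p m := Nat.Coprime.coprime_dvd_left hpn hcop
    rw [hcrit, ← hs]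
    have h1 : m ∣ s ^ p - 1 := by
      have h := comm_pow_pow hyg 1 p
      rw [pow_one, one_mul, hgp, one_mul, mul_one] at h
      have h' : y ^ (s ^ p) = y ^ 1 := by rw [pow_one]; exact h.symm
      rw [pow_eq_pow_iff_modEq, ← hm] at h'
      exact (Nat.modEq_iff_dvd' (Nat.one_le_pow _ _ hs1)).mp h'.symm
    have h2 : ∀ q : ℕ, q.Prime → q ∣ m → q ∣ s - 1 := by
      intro q hq hqm
      obtain ⟨z, hz⟩ : ∃ z : N, z = y ^ (m / q) := ⟨_, rfl⟩
      have hzo : orderOf z = q := by
        rw [hz, orderOf_pow_of_dvd (Nat.div_pos (Nat.le_of_dvd hmpos hqm) hq.pos).ne'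
          (hm ▸ Nat.div_dvd_of_dvd hqm), ← hm, Nat.div_div_self hqm hmpos.ne']
      haveI hzn : (Subgroup.zpowers z).Normal := hz ▸ zpowers_pow_normal y hnorm (m / q)
      have hpq' : p ≠ q := by
        rintro rfl
        have h3 : p ∣ Nat.gcd n m := Nat.dvd_gcd hpn hqm
        rw [hcop] at h3
        exact hp.one_lt.ne' (Nat.dvd_one.mp h3)
      have hdisj : Subgroup.zpowers g ⊓ Subgroup.zpowers z = ⊥ := by
        apply Disjoint.eq_bot
        apply Subgroup.disjoint_of_coprime_natCard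
        rw [Nat.card_zpowers, Nat.card_zpowers, hgo, hzo]
        exact (Nat.coprime_primes hp hq).mpr hpq'
      have hcardA : Nat.card (Subgroup.zpowers g ⊔ Subgroup.zpowers z : Subgroup N) = p * q := by
        rw [card_sup_of_normal _ _ hdisj, Nat.card_zpowers, Nat.card_zpowers, hgo, hzo]
      have hAc := hpq _ p q hp hq hcardA
      have hgz : g * z = z * g := by
        obtain ⟨c, hc⟩ := hAc
        have hgA : g ∈ Subgroup.zpowers g ⊔ Subgroup.zpowers z :=
          (le_sup_left : Subgroup.zpowers g ≤ _) (Subgroup.mem_zpowers g)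
        have hzA : z ∈ Subgroup.zpowers g ⊔ Subgroup.zpowers z :=
          (le_sup_right : Subgroup.zpowers z ≤ _) (Subgroup.mem_zpowers z)
        obtain ⟨i, hi⟩ := Subgroup.mem_zpowers_iff.mp (hc ⟨g, hgA⟩)
        obtain ⟨j, hj⟩ := Subgroup.mem_zpowers_iff.mp (hc ⟨z, hzA⟩)
        have hi' : (c : N) ^ i = g := by simpa using congrArg Subtype.val hi
        have hj' : (c : N) ^ j = z := by simpa using congrArg Subtype.val hj
        calc g * z = (c : N) ^ i * (c : N) ^ j := by rw [hi', hj']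
          _ = (c : N) ^ j * (c : N) ^ i := by rw [← zpow_add, ← zpow_add, add_comm]
          _ = z * g := by rw [hi', hj']
      have h3 := comm_pow hyg (m / q)
      rw [← hz, ← hgz, mul_right_inj] at h3
      have h4 : y ^ (s * (m / q)) = y ^ (m / q) := by rw [← h3, hz]
      rw [pow_eq_pow_iff_modEq, ← hm] at h4
      have h5 : m ∣ s * (m / q) - m / q :=
        (Nat.modEq_iff_dvd' (Nat.le_mul_of_pos_left _ hs1)).mp h4.symm
      have h6 : s * (m / q) - m / q = (s - 1) * (m / q) := by rw [Nat.sub_mul, one_mul]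
      rw [h6] at h5
      obtain ⟨e, he⟩ := hqm
      have hepos : 0 < e := by
        rcases Nat.eq_zero_or_pos e with h0 | h0
        · rw [h0, mul_zero] at he; omega
        · exact h0
      rw [he, Nat.mul_div_cancel_left e hq.pos] at h5
      exact Nat.dvd_of_mul_dvd_mul_right hepos h5
    exact ((Nat.modEq_iff_dvd' hs1).mpr (nt hs1 hpm h1 h2)).symm
  obtain ⟨u, hu⟩ : ∃ u : ZMod m, u = (r : ZMod m) := ⟨_, rfl⟩
  have hcrit' : ∀ i : ℕ, y * x ^ i = x ^ i * y ↔ orderOf u ∣ i := by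
    intro i
    rw [hcrit, orderOf_dvd_iff_pow_eq_one, hu, ← Nat.cast_pow, ← Nat.cast_one (R := ZMod m),
      ZMod.natCast_eq_natCast_iff]
  have hkn : orderOf u ∣ n := (hcrit' n).mp (by rw [hn, pow_orderOf_eq_one, mul_one, one_mul])
  obtain ⟨c, hc⟩ := hkn
  have hkpos : 0 < orderOf u := by
    rcases Nat.eq_zero_or_pos (orderOf u) with h0 | h0
    · rw [h0, zero_mul] at hc; omega
    · exact h0
  obtain ⟨R, hR⟩ : ∃ R : ℕ, R = ∏ p ∈ n.primeFactors, p := ⟨_, rfl⟩
  have hrad : R ∣ c := by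
    rw [hR]
    apply Finset.prod_primes_dvd
    · intro p hp
      exact (Nat.prime_of_mem_primeFactors hp).prime
    · intro p hp
      have hpp := Nat.prime_of_mem_primeFactors hp
      have hpn := Nat.dvd_of_mem_primeFactors hp
      obtain ⟨e, he⟩ := (hcrit' (n / p)).mp (hK1 p hpp hpn)
      have h1 : n = p * (n / p) := (Nat.mul_div_cancel' hpn).symm
      have h2 : orderOf u * c = orderOf u * (p * e) := by
        calc orderOf u * c = n := hc.symm
          _ = p * (n / p) := h1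
          _ = p * (orderOf u * e) := by rw [he]
          _ = orderOf u * (p * e) := by ring
      exact ⟨e, Nat.eq_of_mul_eq_mul_left hkpos h2⟩
  obtain ⟨e, he⟩ := hrad
  have hRpos : 0 < R := by
    rw [hR]
    exact Finset.prod_pos (fun p hp => (Nat.prime_of_mem_primeFactors hp).pos)
  have hfin : n / R = orderOf u * e := by
    apply Nat.div_eq_of_eq_mul_left hRpos
    calc n = orderOf u * c := hc
      _ = orderOf u * (R * e) := by rw [he]
      _ = orderOf u * e * R := by ring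
  rw [← hR]
  exact (hcrit _).mp ((hcrit' (n / R)).mpr ⟨e, hfin⟩)

/-- a finite Z-group whose subgroups of order `p q` are cyclic has a metacyclic presentation with
the congruence `r^(n / rad n) ≡ 1 (mod m)` -/
theorem zgroup_pres {N : Type*} [Group N] [Finite N] [IsZGroup N]
    (hpq : ∀ (A : Subgroup N) (p q : ℕ), p.Prime → q.Prime → Nat.card A = p * q → IsCyclic A) :
    ∃ n m r : ℕ, 0 < n ∧ 0 < m ∧ Nat.Coprime (r - 1) m ∧ Nat.Coprime n m ∧ 1 ≤ r ∧
        r ^ (n / ∏ p ∈ n.primeFactors, p) % m = 1 % m ∧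
        Nonempty (N ≃* PresentedGroup (mrels n m r)) := by
  classical
  obtain ⟨X, hX⟩ := Subgroup.exists_right_complement'_of_coprime
    (IsZGroup.coprime_commutator_index N)
  have h1 : Abelianization N ≃* X := hX.symm.QuotientMulEquiv
  haveI : IsCyclic X := isCyclic_of_surjective _ h1.surjective
  haveI : IsCyclic (commutator N) := IsZGroup.isCyclic_commutator N
  obtain ⟨gx, hgx⟩ := IsCyclic.exists_generator (α := X)
  obtain ⟨gy, hgy⟩ := IsCyclic.exists_generator (α := commutator N)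
  obtain ⟨x, hx⟩ : ∃ x : N, x = gx := ⟨_, rfl⟩
  obtain ⟨y, hy⟩ : ∃ y : N, y = gy := ⟨_, rfl⟩
  have hXz : Subgroup.zpowers x = X := by
    apply le_antisymm
    · rw [Subgroup.zpowers_le, hx]
      exact gx.2
    · intro z hz
      obtain ⟨k, hk⟩ := Subgroup.mem_zpowers_iff.mp (hgx ⟨z, hz⟩)
      rw [Subgroup.mem_zpowers_iff]
      refine ⟨k, ?_⟩
      rw [hx]
      simpa using congrArg Subtype.val hk
  have hYz : Subgroup.zpowers y = commutator N := by
    apply le_antisymm
    · rw [Subgroup.zpowers_le, hy]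
      exact gy.2
    · intro z hz
      obtain ⟨k, hk⟩ := Subgroup.mem_zpowers_iff.mp (hgy ⟨z, hz⟩)
      rw [Subgroup.mem_zpowers_iff]
      refine ⟨k, ?_⟩
      rw [hy]
      simpa using congrArg Subtype.val hk
  have hn : Nat.card X = orderOf x := by rw [← hXz, Nat.card_zpowers]
  have hm : Nat.card (commutator N) = orderOf y := by rw [← hYz, Nat.card_zpowers]
  have hcard : orderOf y * orderOf x = Nat.card N := by
    rw [← hn, ← hm]
    exact hX.card_mul_card
  have hcop : Nat.Coprime (orderOf x) (orderOf y) := by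
    have h2 := IsZGroup.coprime_commutator_index N
    rw [hX.symm.index_eq_card, hn, hm] at h2
    exact h2.symm
  have hnpos : 0 < orderOf x := orderOf_pos x
  have hmpos : 0 < orderOf y := orderOf_pos y
  have hnorm : (Subgroup.zpowers y).Normal := by rw [hYz]; infer_instance
  have hgen : Subgroup.closure {x, y} = ⊤ := by
    rw [eq_top_iff, ← hX.sup_eq_top, sup_le_iff]
    constructor
    · rw [← hYz, Subgroup.zpowers_le]
      exact Subgroup.subset_closure (Or.inr rfl)
    · rw [← hXz, Subgroup.zpowers_le]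
      exact Subgroup.subset_closure (Or.inl rfl)
  obtain ⟨r₀, hr₀⟩ : ∃ r₀ : ℕ, y ^ r₀ = x⁻¹ * y * x := by
    have hmem : x⁻¹ * y * x ∈ Subgroup.zpowers y := by
      have h2 := hnorm.conj_mem y (Subgroup.mem_zpowers y) x⁻¹
      rwa [inv_inv] at h2
    rw [← (isOfFinOrder_of_finite y).mem_powers_iff_mem_zpowers] at hmem
    exact (Submonoid.mem_powers_iff _ _).mp hmem
  obtain ⟨r, hrdef⟩ : ∃ r : ℕ, r = r₀ + orderOf y := ⟨_, rfl⟩
  have hr : x⁻¹ * y * x = y ^ r := by
    rw [hrdef, pow_add, pow_orderOf_eq_one, mul_one, hr₀]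
  have hr1 : 1 ≤ r := by omega
  refine ⟨orderOf x, orderOf y, r, hnpos, hmpos, coprime_of_comm x y r hr1 hr hgen hYz, hcop, hr1,
    congr_of_pq x y r hr1 hr hnorm hcop hpq, ?_⟩
  exact pres_equiv x y _ _ r hnpos hmpos (pow_orderOf_eq_one x) (pow_orderOf_eq_one y) hr hgen
    (by rw [← hcard, mul_comm])

end Cfsg.Agent.Lib.Helper73.ZP
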